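import Cfsg.Agent.FW.Ord
import Cfsg.Agent.FW.Fact22

/-!
# Products of three commuting members
-/

set_option autoImplicit false
set_option linter.unusedSectionVars false

namespace Cfsg.Agent.FW

open Cfsg.Agent.Fi22

open Finset Matrix Module Cfsg.Agent.Uni Cfsg.Agent.ThreeTransp

section vec

variable {F : Type*} [Field F] [Fintype F]

/-- `SU 6` is transitive on pairs of orthogonal nonproportional isotropic vectors. -/
theorem su_trans_pair (hF : Fintype.card F = 2 ^ 2) {u v u' v' : Fin 6 → F} (hu0 : u ≠ 0) (huv : NP u v)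
    (hu : hermForm 6 F 2 u u = 0) (hv : hermForm 6 F 2 v v = 0) (h : hermForm 6 F 2 u v = 0)
    (hu0' : u' ≠ 0) (huv' : NP u' v') (hu' : hermForm 6 F 2 u' u' = 0) (hv' : hermForm 6 F 2 v' v' = 0)
    (h' : hermForm 6 F 2 u' v' = 0) : ∃ t : SU 6 F 2, act t u = u' ∧ act t v = v' := by
  classical
  have ti := isTI_two hF hu0 huv hu hv h
  have ti' := isTI_two hF hu0' huv' hu' hv' h'
  obtain ⟨g, hg⟩ := exists_GU_of_family hF ti.1 ti'.1 (fun i j => by rw [ti.2, ti'.2])
  have hg0 : gact g u = u' := hg 0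
  have hg1 : gact g v = v' := hg 1
  -- a nonsingular vector orthogonal to both
  set W := Submodule.span F {u', v'} with hW
  have hrk : finrank F W ≤ 2 := by
    have := finrank_span_finset_le_card (R := F) ({u', v'} : Finset (Fin 6 → F))
    have h2 : (({u', v'} : Finset (Fin 6 → F)) : Set (Fin 6 → F)) = {u', v'} := by simp
    rw [Set.finrank, h2] at this
    exact this.trans (Finset.card_insert_le _ _)
  have hrk2 := finrank_perp hF W
  have hex : ∃ x ∈ Uni.perp 2 W, ∃ y ∈ Uni.perp 2 W, hermForm 6 F 2 x y ≠ 0 := by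
    by_contra hcon
    push Not at hcon
    have := ti_finrank hF hcon
    omega
  obtain ⟨x, hx, y, hy, hxy⟩ := hex
  obtain ⟨z, hz, hzz⟩ := exists_unit_mem hF _ hx hy hxy
  rw [mem_perp_span hF] at hz
  have hzu := hz u' (by simp)
  have hzv := hz v' (by simp)
  set c : F := ((detHom hF 6 g : Fˣ) : F) with hc
  have hc3 : c ^ (2 + 1) = 1 := by
    rw [hc, detHom_coe]
    exact Pres.det_norm hF (GU_pres g)
  have hc3' : (c⁻¹) ^ (2 + 1) = 1 := by rw [inv_pow, hc3, inv_one]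
  obtain ⟨k, hk, hkd⟩ := exists_grefl hF hzz hc3'
  have hc0 : c ≠ 0 := by
    rw [hc]; exact Units.ne_zero _
  have hker : k * g ∈ (detHom hF 6).ker := by
    rw [MonoidHom.mem_ker, map_mul]
    ext
    rw [Subgroup.coe_mul, Units.val_mul, hkd, ← hc, inv_mul_cancel₀ hc0]
    rfl
  rw [← suToGU_range hF] at hker
  obtain ⟨t, ht⟩ := hker
  have e : ∀ x, act t x = gact k (gact g x) := by
    intro x
    rw [← gact_suToGU hF t x, ht, gact_mul]
  refine ⟨t, ?_, ?_⟩
  · rw [e, hg0, hk, (hermForm_eq_zero_comm hF).1 hzu, mul_zero, zero_smul, add_zero]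
  · rw [e, hg1, hk, (hermForm_eq_zero_comm hF).1 hzv, mul_zero, zero_smul, add_zero]

end vec

variable {G : Type*} [Group G] {D : Set G}

/-- `h` realises the action of an element of `SU 6` on the points. -/
theorem Dict.conj_of_act {d : G} {F : Type} [Field F] [Fintype F] (hconj : ∀ g : G, ∀ d ∈ D, g * d * g⁻¹ ∈ D)
    (Δ : Dict D d F) {k : G} (hk : k ∈ Subgroup.closure (perp D d)) {t : SU 6 F 2} (ht : Δ.ψ ⟨k, hk⟩ = pr t)
    {y : G} (hy : y ∈ perp D d) : k * y * k⁻¹ ∈ perp D d ∧ k * y * k⁻¹ = Δ.pt (act t (Δ.vec y)) := by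
  have hkd : k * d * k⁻¹ = d := by
    have h1 : Subgroup.closure (perp D d) ≤ Subgroup.centralizer {d} := by
      rw [Subgroup.closure_le]
      intro y hy
      rw [SetLike.mem_coe, Subgroup.mem_centralizer_singleton_iff]
      exact hy.2.2.symm
    have h2 := Subgroup.mem_centralizer_singleton_iff.1 (h1 hk)
    rw [h2, mul_inv_cancel_right]
  have hm : k * y * k⁻¹ ∈ perp D d := by
    have := (perp_conj_iff hconj (d := d) (y := y) k).2 hy
    rwa [hkd] at this
  refine ⟨hm, ?_⟩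
  have hF := Δ.hF
  have hu0 := Δ.ne y hy
  have hu := Δ.iso y hy
  have h3 : pr (tv (Δ.vec (k * y * k⁻¹))) = pr (tv (act t (Δ.vec y))) := by
    have e1 : pr (tv (act t (Δ.vec y))) = pr t * pr (tv (Δ.vec y)) * (pr t)⁻¹ := by
      rw [← tv_conj hF hu t]; rfl
    rw [e1, ← ht, ← Δ.map y hy, ← map_mul, ← map_inv, ← map_mul, ← Δ.map _ hm]
    rfl
  have h4 := (pr_tv_inj hF (by norm_num) (Δ.ne _ hm) (act_ne_zero hu0) (Δ.iso _ hm) (by rw [act_form, hu])).1 h3
  obtain ⟨c, hc, hcu⟩ := h4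
  apply Δ.eq_pt (act_ne_zero hu0) (by rw [act_form, hu]) hm
  exact ⟨c⁻¹, inv_ne_zero hc, by rw [hcu, smul_smul, inv_mul_cancel₀ hc, one_smul]⟩

/-- ordered commuting triples of distinct members -/
def Tset (D : Set G) : Set (G × G × G) :=
  {p | p.1 ∈ D ∧ p.2.1 ∈ perp D p.1 ∧ p.2.2 ∈ perp D p.1 ∧ p.2.2 ∈ perp D p.2.1}

theorem card_Tset [Finite G] {k l κ m1 m2 N : ℕ} (classical : DecidableEq G)
    (hp : Comb.Par (DF D) (NF D) k l κ m1 m2) (hN : (DF D).card = N) : (Tset D).ncard = N * (k * l) := by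
  set S : Finset (Σ _ : G, Σ _ : G, G) := (DF D).sigma (fun x => (NF D x).sigma fun y => NF D x ∩ NF D y) with hS
  have hcard : S.card = N * (k * l) := by
    rw [hS, Finset.card_sigma]
    have : ∀ x ∈ DF D, ((NF D x).sigma fun y => NF D x ∩ NF D y).card = k * l := by
      intro x hx
      rw [Finset.card_sigma, Finset.sum_congr rfl (fun y hy => hp.c2 x hx y hy), Finset.sum_const, hp.c1 x hx,
        smul_eq_mul]
    rw [Finset.sum_congr rfl this, Finset.sum_const, hN, smul_eq_mul]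
  have hT : Tset D = ((S.image fun p => (p.1, p.2.1, p.2.2) : Finset (G × G × G)) : Set (G × G × G)) := by
    ext ⟨x, y, z⟩
    simp only [Tset, Set.mem_ofPred_eq, Finset.coe_image, Set.mem_image, SetLike.mem_coe, hS, Finset.mem_sigma,
      Finset.mem_inter, mem_DF, mem_NF, Prod.mk.injEq]
    constructor
    · rintro ⟨h1, h2, h3, h4⟩
      exact ⟨⟨x, y, z⟩, ⟨h1, h2, h3, h4⟩, rfl, rfl, rfl⟩
    · rintro ⟨⟨x', y', z'⟩, ⟨h1, h2, h3, h4⟩, rfl, rfl, rfl⟩
      exact ⟨h1, h2, h3, h4⟩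
  rw [hT, Set.ncard_coe_finset, Finset.card_image_of_injective _ ?_, hcard]
  rintro ⟨x, y, z⟩ ⟨x', y', z'⟩ h
  simp only [Prod.mk.injEq] at h
  obtain ⟨rfl, rfl, rfl⟩ := h
  rfl

namespace H22

variable [Finite G] (h : H22 D)
include h

theorem trans_triple {a b c a' b' c' : G} (h1 : (a, b, c) ∈ Tset D) (h2 : (a', b', c') ∈ Tset D) :
    ∃ g : G, g * a * g⁻¹ = a' ∧ g * b * g⁻¹ = b' ∧ g * c * g⁻¹ = c' := by
  obtain ⟨ha, hb, hc, hbc⟩ := h1
  obtain ⟨ha', hb', hc', hbc'⟩ := h2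
  change a ∈ D at ha
  change b ∈ perp D a at hb
  change c ∈ perp D a at hc
  change c ∈ perp D b at hbc
  change a' ∈ D at ha'
  change b' ∈ perp D a' at hb'
  change c' ∈ perp D a' at hc'
  change c' ∈ perp D b' at hbc'
  obtain ⟨g, hg⟩ := exists_conj h.cls ha ha'
  have hb1 : g * b * g⁻¹ ∈ perp D a' := by
    rw [← hg]; exact (perp_conj_iff h.hconj g).2 hb
  have hc1 : g * c * g⁻¹ ∈ perp D a' := by
    rw [← hg]; exact (perp_conj_iff h.hconj g).2 hc
  have hbc1 : g * c * g⁻¹ ∈ perp D (g * b * g⁻¹) := (perp_conj_iff h.hconj g).2 hbc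
  obtain ⟨F, i1, i2, ⟨Δ⟩⟩ := h.dict ha'
  have hF := Δ.hF
  have np : ∀ {x y : G}, x ∈ perp D a' → y ∈ perp D a' → y ≠ x → NP (Δ.vec x) (Δ.vec y) := by
    intro x y hx hy hne e he
    apply hne
    refine (Δ.inj x hx y hy ⟨e, ?_, he⟩).symm
    rintro rfl
    exact Δ.ne y hy (by rw [he, zero_smul])
  obtain ⟨t, ht1, ht2⟩ := su_trans_pair hF (Δ.ne _ hb1) (np hb1 hc1 hbc1.2.1) (Δ.iso _ hb1) (Δ.iso _ hc1)
    ((Δ.comm _ hb1 _ hc1).1 hbc1.2.2) (Δ.ne _ hb') (np hb' hc' hbc'.2.1) (Δ.iso _ hb') (Δ.iso _ hc')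
    ((Δ.comm _ hb' _ hc').1 hbc'.2.2)
  obtain ⟨⟨k, hk⟩, hkt⟩ := Δ.surj (pr t)
  have e1 := (Δ.conj_of_act h.hconj hk hkt hb1).2
  have e2 := (Δ.conj_of_act h.hconj hk hkt hc1).2
  rw [ht1, Δ.pt_vec_self hb'] at e1
  rw [ht2, Δ.pt_vec_self hc'] at e2
  have hkd : k * a' * k⁻¹ = a' := by
    have h1 : Subgroup.closure (perp D a') ≤ Subgroup.centralizer {a'} := by
      rw [Subgroup.closure_le]
      intro y hy
      rw [SetLike.mem_coe, Subgroup.mem_centralizer_singleton_iff]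
      exact hy.2.2.symm
    have h2 := Subgroup.mem_centralizer_singleton_iff.1 (h1 hk)
    rw [h2, mul_inv_cancel_right]
  refine ⟨k * g, ?_, ?_, ?_⟩
  · calc k * g * a * (k * g)⁻¹ = k * (g * a * g⁻¹) * k⁻¹ := by group
      _ = a' := by rw [hg, hkd]
  · calc k * g * b * (k * g)⁻¹ = k * (g * b * g⁻¹) * k⁻¹ := by group
      _ = b' := e1
  · calc k * g * c * (k * g)⁻¹ = k * (g * c * g⁻¹) * k⁻¹ := by group
      _ = c' := e2

/-- the joint centraliser of three commuting members -/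
theorem card_stab {a b c : G} (habc : (a, b, c) ∈ Tset D) :
    Nat.card G = 3510 * (693 * 180) * Nat.card (MulAction.stabilizer (ConjAct G) (a, b, c)) := by
  classical
  have h1 : MulAction.orbit (ConjAct G) (a, b, c) = Tset D := by
    ext ⟨x, y, z⟩
    rw [MulAction.mem_orbit_iff]
    constructor
    · rintro ⟨g, hg⟩
      have e : (g • (a, b, c) : G × G × G) = (g • a, g • b, g • c) := rfl
      rw [e, ConjAct.smul_def, ConjAct.smul_def, ConjAct.smul_def] at hg
      simp only [Prod.mk.injEq] at hg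
      obtain ⟨rfl, rfl, rfl⟩ := hg
      obtain ⟨ha, hb, hc, hbc⟩ := habc
      exact ⟨conj_mem h.cls ha _, (perp_conj_iff h.hconj _).2 hb, (perp_conj_iff h.hconj _).2 hc,
        (perp_conj_iff h.hconj _).2 hbc⟩
    · intro hx
      obtain ⟨g, hg1, hg2, hg3⟩ := h.trans_triple habc hx
      refine ⟨ConjAct.toConjAct g, ?_⟩
      have e : (ConjAct.toConjAct g • (a, b, c) : G × G × G) = (g * a * g⁻¹, g * b * g⁻¹, g * c * g⁻¹) := rfl
      rw [e, hg1, hg2, hg3]
  have h2 := (MulAction.stabilizer (ConjAct G) (a, b, c)).index_mul_card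
  rw [MulAction.index_stabilizer, h1, card_Tset inferInstance h.par h.card_DF] at h2
  rw [h2]
  rfl

/-- triples with a given product -/
def TJ (D : Set G) (j : G) : Set (G × G × G) := {p | p ∈ Tset D ∧ p.1 * p.2.1 * p.2.2 = j}

omit [Finite G] h in
theorem tset_fact {a b c j : G} (hp : (a, b, c) ∈ TJ D j) : IsFact D 3 j [a, b, c] := by
  obtain ⟨⟨ha, hb, hc, hbc⟩, hj⟩ := hp
  change a ∈ D at ha
  change b ∈ perp D a at hb
  change c ∈ perp D a at hc
  change c ∈ perp D b at hbc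
  refine ⟨?_, rfl, ?_, ?_, ?_⟩
  · simp only [List.nodup_cons, List.mem_cons, List.not_mem_nil, or_false, not_or, List.nodup_nil, and_true,
      not_false_eq_true]
    exact ⟨⟨hb.2.1.symm, hc.2.1.symm⟩, hbc.2.1.symm⟩
  · intro x hx
    simp only [List.mem_cons, List.not_mem_nil, or_false] at hx
    rcases hx with rfl | rfl | rfl
    · exact ha
    · exact hb.1
    · exact hc.1
  · intro x hx y hy
    simp only [List.mem_cons, List.not_mem_nil, or_false] at hx hy
    rcases hx with rfl | rfl | rfl <;> rcases hy with rfl | rfl | rfl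
    · exact Commute.refl _
    · exact hb.2.2
    · exact hc.2.2
    · exact hb.2.2.symm
    · exact Commute.refl _
    · exact hbc.2.2
    · exact hc.2.2.symm
    · exact hbc.2.2.symm
    · exact Commute.refl _
  · rw [← hj]
    simp [mul_assoc]

omit [Finite G] h in
theorem fact_perm {a b c x y z j : G} (h1 : IsFact D 3 j [a, b, c]) (hx : x ∈ [a, b, c]) (hy : y ∈ [a, b, c])
    (hz : z ∈ [a, b, c]) (hxy : x ≠ y) (hxz : x ≠ z) (hyz : y ≠ z) : (x, y, z) ∈ TJ D j := by
  obtain ⟨k1, -, k3, k4, k5⟩ := h1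
  refine ⟨⟨k3 x hx, ⟨k3 y hy, hxy.symm, k4 x hx y hy⟩, ⟨k3 z hz, hxz.symm, k4 x hx z hz⟩,
    ⟨k3 z hz, hyz.symm, k4 y hy z hz⟩⟩, ?_⟩
  rw [← k5]
  have hab : Commute a b := k4 a (by simp) b (by simp)
  have hac : Commute a c := k4 a (by simp) c (by simp)
  have hbc : Commute b c := k4 b (by simp) c (by simp)
  change x * y * z = _
  simp only [List.prod_cons, List.prod_nil, mul_one]
  simp only [List.mem_cons, List.not_mem_nil, or_false] at hx hy hz
  rcases hx with rfl | rfl | rfl <;> rcases hy with rfl | rfl | rfl <;> rcases hz with rfl | rfl | rfl <;>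
    first
    | exact absurd rfl hxy
    | exact absurd rfl hxz
    | exact absurd rfl hyz
    | skip
  · rw [mul_assoc]
  · rw [mul_assoc, hbc.eq]
  · rw [hab.symm.eq, mul_assoc]
  · rw [mul_assoc, hac.symm.eq, ← mul_assoc, hab.symm.eq, mul_assoc]
  · rw [hac.symm.eq, mul_assoc, hbc.symm.eq]
  · rw [mul_assoc, hab.symm.eq, ← mul_assoc, hac.symm.eq, mul_assoc, hbc.symm.eq]

theorem card_TJ {a b c j : G} (hp : (a, b, c) ∈ TJ D j) : (TJ D j).ncard = 12 := by
  classical
  obtain ⟨l₁, l₂, h1, h2, h3, h4⟩ := h.fact_three (tset_fact hp)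
  obtain ⟨a1, b1, c1, rfl⟩ := List.length_eq_three.1 h1.2.1
  obtain ⟨a2, b2, c2, rfl⟩ := List.length_eq_three.1 h2.2.1
  have n1 := h1.1
  have n2 := h2.1
  simp only [List.nodup_cons, List.mem_cons, List.not_mem_nil, or_false, not_or, List.nodup_nil, and_true,
    not_false_eq_true] at n1 n2
  obtain ⟨⟨n1ab', n1ac'⟩, n1bc'⟩ := n1
  obtain ⟨⟨n2ab', n2ac'⟩, n2bc'⟩ := n2
  have n1ab : a1 ≠ b1 := n1ab'
  have n1ac : a1 ≠ c1 := n1ac'
  have n1bc : b1 ≠ c1 := n1bc'
  have n2ab : a2 ≠ b2 := n2ab'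
  have n2ac : a2 ≠ c2 := n2ac'
  have n2bc : b2 ≠ c2 := n2bc'
  have hdis : ∀ x ∈ [a1, b1, c1], ∀ y ∈ [a2, b2, c2], x ≠ y := by
    rintro x hx _ hy rfl
    exact h3 (h.fact_meet h1 h2 hx hy)
  have hT : TJ D j = (({(a1, b1, c1), (a1, c1, b1), (b1, a1, c1), (b1, c1, a1), (c1, a1, b1), (c1, b1, a1),
      (a2, b2, c2), (a2, c2, b2), (b2, a2, c2), (b2, c2, a2), (c2, a2, b2), (c2, b2, a2)} :
      Finset (G × G × G)) : Set (G × G × G)) := by
    ext ⟨x, y, z⟩
    constructor
    · intro hxyz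
      have hf := tset_fact hxyz
      have key : ∀ {a b c : G}, (∀ w : G, w ∈ [x, y, z] ↔ w ∈ [a, b, c]) →
          (x, y, z) = (a, b, c) ∨ (x, y, z) = (a, c, b) ∨ (x, y, z) = (b, a, c) ∨ (x, y, z) = (b, c, a) ∨
          (x, y, z) = (c, a, b) ∨ (x, y, z) = (c, b, a) := by
        intro a b c hw
        have n := hf.1
        simp only [List.nodup_cons, List.mem_cons, List.not_mem_nil, or_false, not_or, List.nodup_nil, and_true,
          not_false_eq_true] at n
        obtain ⟨⟨nxy, nxz⟩, nyz⟩ := n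
        have hx := (hw x).1 (by simp)
        have hy := (hw y).1 (by simp)
        have hz := (hw z).1 (by simp)
        simp only [List.mem_cons, List.not_mem_nil, or_false] at hx hy hz
        rcases hx with rfl | rfl | rfl <;> rcases hy with rfl | rfl | rfl <;> rcases hz with rfl | rfl | rfl <;>
          first
          | exact absurd rfl nxy
          | exact absurd rfl nxz
          | exact absurd rfl nyz
          | simp
      simp only [Finset.coe_insert, Finset.coe_singleton, Set.mem_insert_iff, Set.mem_singleton_iff]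
      rcases h4 _ hf with h5 | h5
      · rcases key h5 with h6 | h6 | h6 | h6 | h6 | h6 <;> rw [h6] <;> simp
      · rcases key h5 with h6 | h6 | h6 | h6 | h6 | h6 <;> rw [h6] <;> simp
    · intro hxyz
      simp only [Finset.coe_insert, Finset.coe_singleton, Set.mem_insert_iff, Set.mem_singleton_iff,
        Prod.mk.injEq] at hxyz
      rcases hxyz with ⟨rfl, rfl, rfl⟩ | ⟨rfl, rfl, rfl⟩ | ⟨rfl, rfl, rfl⟩ | ⟨rfl, rfl, rfl⟩ | ⟨rfl, rfl, rfl⟩ |
        ⟨rfl, rfl, rfl⟩ | ⟨rfl, rfl, rfl⟩ | ⟨rfl, rfl, rfl⟩ | ⟨rfl, rfl, rfl⟩ | ⟨rfl, rfl, rfl⟩ | ⟨rfl, rfl, rfl⟩ |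
        ⟨rfl, rfl, rfl⟩
      · exact fact_perm h1 (by simp) (by simp) (by simp) n1ab n1ac n1bc
      · exact fact_perm h1 (by simp) (by simp) (by simp) n1ac n1ab n1bc.symm
      · exact fact_perm h1 (by simp) (by simp) (by simp) n1ab.symm n1bc n1ac
      · exact fact_perm h1 (by simp) (by simp) (by simp) n1bc n1ab.symm n1ac.symm
      · exact fact_perm h1 (by simp) (by simp) (by simp) n1ac.symm n1bc.symm n1ab
      · exact fact_perm h1 (by simp) (by simp) (by simp) n1bc.symm n1ac.symm n1ab.symm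
      · exact fact_perm h2 (by simp) (by simp) (by simp) n2ab n2ac n2bc
      · exact fact_perm h2 (by simp) (by simp) (by simp) n2ac n2ab n2bc.symm
      · exact fact_perm h2 (by simp) (by simp) (by simp) n2ab.symm n2bc n2ac
      · exact fact_perm h2 (by simp) (by simp) (by simp) n2bc n2ab.symm n2ac.symm
      · exact fact_perm h2 (by simp) (by simp) (by simp) n2ac.symm n2bc.symm n2ab
      · exact fact_perm h2 (by simp) (by simp) (by simp) n2bc.symm n2ac.symm n2ab.symm
  rw [hT, Set.ncard_coe_finset]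
  have d1 := hdis a1 (by simp) a2 (by simp)
  have d2 := hdis a1 (by simp) b2 (by simp)
  have d3 := hdis a1 (by simp) c2 (by simp)
  have d4 := hdis b1 (by simp) a2 (by simp)
  have d5 := hdis b1 (by simp) b2 (by simp)
  have d6 := hdis b1 (by simp) c2 (by simp)
  have d7 := hdis c1 (by simp) a2 (by simp)
  have d8 := hdis c1 (by simp) b2 (by simp)
  have d9 := hdis c1 (by simp) c2 (by simp)
  simp [n1ab, n1ac, n1bc, n2ab, n2ac, n2bc, n1ab.symm, n1ac.symm, n1bc.symm, n2ab.symm, n2ac.symm, n2bc.symm,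
    d1, d2, d3, d4, d5, d6, d7, d8, d9]

/-- the centraliser of the product of three commuting members -/
theorem card_centralizer_three {a b c j : G} (hp : (a, b, c) ∈ TJ D j) :
    Nat.card (Subgroup.centralizer ({j} : Set G)) = 2 ^ 16 * 3 ^ 3 := by
  have hC : Nat.card (Subgroup.centralizer ({j} : Set G)) = Nat.card (MulAction.stabilizer (ConjAct G) j) := by
    rw [ConjAct.stabilizer_eq_centralizer]
    exact Nat.card_congr ⟨fun x => ⟨ConjAct.toConjAct x.1, x.2⟩, fun x => ⟨ConjAct.ofConjAct x.1, x.2⟩,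
      fun x => rfl, fun x => rfl⟩
  have horb : MulAction.orbit (MulAction.stabilizer (ConjAct G) j) (a, b, c) = TJ D j := by
    ext ⟨x, y, z⟩
    rw [MulAction.mem_orbit_iff]
    constructor
    · rintro ⟨⟨g, hgj⟩, hg⟩
      have e : ((⟨g, hgj⟩ : ↥(MulAction.stabilizer (ConjAct G) j)) • (a, b, c) : G × G × G) =
        (g • a, g • b, g • c) := rfl
      rw [e, ConjAct.smul_def, ConjAct.smul_def, ConjAct.smul_def] at hg
      simp only [Prod.mk.injEq] at hg
      obtain ⟨rfl, rfl, rfl⟩ := hg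
      rw [MulAction.mem_stabilizer_iff, ConjAct.smul_def] at hgj
      obtain ⟨⟨ha, hb, hc, hbc⟩, hj⟩ := hp
      refine ⟨⟨conj_mem h.cls ha _, (perp_conj_iff h.hconj _).2 hb, (perp_conj_iff h.hconj _).2 hc,
        (perp_conj_iff h.hconj _).2 hbc⟩, ?_⟩
      change a * b * c = j at hj
      rw [← hgj, ← hj]
      group
    · intro hx
      obtain ⟨g, hg1, hg2, hg3⟩ := h.trans_triple hp.1 hx.1
      have hgj : ConjAct.toConjAct g ∈ MulAction.stabilizer (ConjAct G) j := by
        rw [MulAction.mem_stabilizer_iff, ConjAct.smul_def, ConjAct.ofConjAct_toConjAct]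
        have e1 : a * b * c = j := hp.2
        have e2 : x * y * z = j := hx.2
        rw [← e1]
        have : g * (a * b * c) * g⁻¹ = (g * a * g⁻¹) * (g * b * g⁻¹) * (g * c * g⁻¹) := by group
        rw [this, hg1, hg2, hg3, e2, e1]
      refine ⟨⟨_, hgj⟩, ?_⟩
      have e : ((⟨_, hgj⟩ : ↥(MulAction.stabilizer (ConjAct G) j)) • (a, b, c) : G × G × G) =
        (g * a * g⁻¹, g * b * g⁻¹, g * c * g⁻¹) := rfl
      rw [e, hg1, hg2, hg3]
  have h2 := (MulAction.stabilizer (MulAction.stabilizer (ConjAct G) j) (a, b, c)).index_mul_card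
  rw [MulAction.index_stabilizer, horb, h.card_TJ hp, ← hC] at h2
  have h3 : Nat.card (MulAction.stabilizer (MulAction.stabilizer (ConjAct G) j) (a, b, c)) =
      Nat.card (MulAction.stabilizer (ConjAct G) (a, b, c)) := by
    refine Nat.card_congr ⟨fun x => ⟨x.1.1, ?_⟩, fun x => ⟨⟨x.1, ?_⟩, ?_⟩, fun x => rfl, fun x => rfl⟩
    · have := x.2
      rw [MulAction.mem_stabilizer_iff] at this ⊢
      exact this
    · have hx := x.2
      rw [MulAction.mem_stabilizer_iff] at hx ⊢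
      have e : ((x : ConjAct G) • (a, b, c) : G × G × G) = (x.1 • a, x.1 • b, x.1 • c) := rfl
      rw [e] at hx
      simp only [Prod.mk.injEq] at hx
      obtain ⟨k1, k2, k3⟩ := hx
      have e1 : a * b * c = j := hp.2
      rw [ConjAct.smul_def] at k1 k2 k3 ⊢
      calc ConjAct.ofConjAct (x : ConjAct G) * j * (ConjAct.ofConjAct (x : ConjAct G))⁻¹ =
          (ConjAct.ofConjAct (x : ConjAct G) * a * (ConjAct.ofConjAct (x : ConjAct G))⁻¹) *
          (ConjAct.ofConjAct (x : ConjAct G) * b * (ConjAct.ofConjAct (x : ConjAct G))⁻¹) *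
          (ConjAct.ofConjAct (x : ConjAct G) * c * (ConjAct.ofConjAct (x : ConjAct G))⁻¹) := by rw [← e1]; group
        _ = j := by rw [k1, k2, k3, e1]
    · have hx := x.2
      rw [MulAction.mem_stabilizer_iff] at hx ⊢
      exact hx
  rw [h3] at h2
  have h4 := h.card_stab hp.1
  rw [h.card_G] at h4
  rw [← h2]
  have h5 : Nat.card (MulAction.stabilizer (ConjAct G) (a, b, c)) = 2 ^ 14 * 3 ^ 2 := by
    norm_num at h4 ⊢
    omega
  rw [h5]
  norm_num

end H22

end Cfsg.Agent.FW
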