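import Cfsg.Agent.FW.Dict
import Cfsg.Agent.Fi22.Vec
import Cfsg.Agent.ThreeTransp.Primitive
import Cfsg.Agent.ThreeTransp.Fact

/-!
# Points of the polar space of a member of a class of type M(22); sets of six commuting members with trivial product
-/

set_option autoImplicit false
set_option linter.unusedSectionVars false

namespace Cfsg.Agent.FW

open Cfsg.Agent.Fi22

open Finset Matrix Module Cfsg.Agent.Uni Cfsg.Agent.ThreeTransp

variable {G : Type*} [Group G] {D : Set G}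

namespace Dict

variable {d : G} {F : Type} [Field F] [Fintype F] (Δ : Dict D d F)

open Classical in
/-- the member of `perp D d` with given isotropic vector -/
noncomputable def pt (w : Fin 6 → F) : G :=
  if h : w ≠ 0 ∧ hermForm 6 F 2 w w = 0 then (Δ.all w h.1 h.2).choose else 1

theorem pt_spec {w : Fin 6 → F} (hw0 : w ≠ 0) (hw : hermForm 6 F 2 w w = 0) :
    Δ.pt w ∈ perp D d ∧ ∃ c : F, c ≠ 0 ∧ Δ.vec (Δ.pt w) = c • w := by
  have h : w ≠ 0 ∧ hermForm 6 F 2 w w = 0 := ⟨hw0, hw⟩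
  rw [pt, dif_pos h]
  exact (Δ.all w h.1 h.2).choose_spec

theorem pt_mem {w : Fin 6 → F} (hw0 : w ≠ 0) (hw : hermForm 6 F 2 w w = 0) : Δ.pt w ∈ perp D d :=
  (Δ.pt_spec hw0 hw).1

theorem pt_vec {w : Fin 6 → F} (hw0 : w ≠ 0) (hw : hermForm 6 F 2 w w = 0) :
    ∃ c : F, c ≠ 0 ∧ Δ.vec (Δ.pt w) = c • w := (Δ.pt_spec hw0 hw).2

theorem eq_pt {w : Fin 6 → F} (hw0 : w ≠ 0) (hw : hermForm 6 F 2 w w = 0) {y : G} (hy : y ∈ perp D d)
    (h : ∃ c : F, c ≠ 0 ∧ Δ.vec y = c • w) : y = Δ.pt w := by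
  obtain ⟨c, hc, h1⟩ := h
  obtain ⟨c', hc', h2⟩ := Δ.pt_vec hw0 hw
  apply Δ.inj y hy _ (Δ.pt_mem hw0 hw)
  refine ⟨c' * c⁻¹, mul_ne_zero hc' (inv_ne_zero hc), ?_⟩
  rw [h1, h2, smul_smul, mul_assoc, inv_mul_cancel₀ hc, mul_one]

theorem pt_vec_self {y : G} (hy : y ∈ perp D d) : Δ.pt (Δ.vec y) = y :=
  (Δ.eq_pt (Δ.ne y hy) (Δ.iso y hy) hy ⟨1, one_ne_zero, (one_smul _ _).symm⟩).symm

theorem exists_pt {y : G} (hy : y ∈ perp D d) : ∃ w : Fin 6 → F, w ≠ 0 ∧ hermForm 6 F 2 w w = 0 ∧ y = Δ.pt w :=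
  ⟨Δ.vec y, Δ.ne y hy, Δ.iso y hy, (Δ.pt_vec_self hy).symm⟩

theorem pt_smul {w : Fin 6 → F} (hw0 : w ≠ 0) (hw : hermForm 6 F 2 w w = 0) {c : F} (hc : c ≠ 0) :
    Δ.pt (c • w) = Δ.pt w := by
  have h0 : c • w ≠ 0 := smul_ne_zero hc hw0
  have h1 := herm_smul_self hw c
  apply Δ.eq_pt hw0 hw (Δ.pt_mem h0 h1)
  obtain ⟨c', hc', h2⟩ := Δ.pt_vec h0 h1
  exact ⟨c' * c, mul_ne_zero hc' hc, by rw [h2, smul_smul]⟩

theorem pt_eq_iff {w w' : Fin 6 → F} (hw0 : w ≠ 0) (hw : hermForm 6 F 2 w w = 0) (hw0' : w' ≠ 0)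
    (hw' : hermForm 6 F 2 w' w' = 0) : Δ.pt w = Δ.pt w' ↔ ∃ c : F, c ≠ 0 ∧ w' = c • w := by
  constructor
  · intro h
    obtain ⟨c, hc, h1⟩ := Δ.pt_vec hw0 hw
    obtain ⟨c', hc', h2⟩ := Δ.pt_vec hw0' hw'
    rw [h, h2] at h1
    refine ⟨c'⁻¹ * c, mul_ne_zero (inv_ne_zero hc') hc, ?_⟩
    rw [← smul_smul, ← h1, smul_smul, inv_mul_cancel₀ hc', one_smul]
  · rintro ⟨c, hc, rfl⟩
    exact (Δ.pt_smul hw0 hw hc).symm

theorem pt_ne_iff {w w' : Fin 6 → F} (hw0 : w ≠ 0) (hw : hermForm 6 F 2 w w = 0) (hw0' : w' ≠ 0)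
    (hw' : hermForm 6 F 2 w' w' = 0) : Δ.pt w ≠ Δ.pt w' ↔ NP w w' := by
  rw [Ne, Δ.pt_eq_iff hw0 hw hw0' hw']
  constructor
  · intro h c hc
    exact h ⟨c, fun h0 => hw0' (by rw [hc, h0, zero_smul]), hc⟩
  · rintro h ⟨c, -, hc⟩
    exact h c hc

theorem map_pt {w : Fin 6 → F} (hw0 : w ≠ 0) (hw : hermForm 6 F 2 w w = 0) :
    Δ.ψ ⟨Δ.pt w, Subgroup.subset_closure (Δ.pt_mem hw0 hw)⟩ = pr (tv w) := by
  rw [Δ.map _ (Δ.pt_mem hw0 hw)]
  obtain ⟨c, hc, h1⟩ := Δ.pt_vec hw0 hw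
  rw [h1, tv_smul Δ.hF hw hc]

theorem commute_pt {w w' : Fin 6 → F} (hw0 : w ≠ 0) (hw : hermForm 6 F 2 w w = 0) (hw0' : w' ≠ 0)
    (hw' : hermForm 6 F 2 w' w' = 0) : Commute (Δ.pt w) (Δ.pt w') ↔ hermForm 6 F 2 w w' = 0 := by
  rw [Δ.comm _ (Δ.pt_mem hw0 hw) _ (Δ.pt_mem hw0' hw')]
  obtain ⟨c, hc, h1⟩ := Δ.pt_vec hw0 hw
  obtain ⟨c', hc', h2⟩ := Δ.pt_vec hw0' hw'
  rw [h1, h2, hermForm_smul_left, hermForm_smul_right, mul_eq_zero, mul_eq_zero,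
    or_iff_right hc, or_iff_right (pow_ne_zero _ hc')]

theorem pt_conj (hD : Cfsg.IsThreeTranspositionClass D) {w w' : Fin 6 → F} (hw0 : w ≠ 0)
    (hw : hermForm 6 F 2 w w = 0) (hw0' : w' ≠ 0) (hw' : hermForm 6 F 2 w' w' = 0) :
    Δ.pt w * Δ.pt w' * (Δ.pt w)⁻¹ = Δ.pt (w' + hermForm 6 F 2 w' w • w) := by
  have hm := Δ.pt_mem hw0 hw
  have hm' := Δ.pt_mem hw0' hw'
  have h1 : Δ.pt w * Δ.pt w' * (Δ.pt w)⁻¹ ∈ perp D d :=
    perp_conj_closed (fun g d hd => conj_mem hD hd g) (Subgroup.subset_closure hm) hm'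
  have e := tv_act Δ.hF hw w'
  have h3 : hermForm 6 F 2 (w' + hermForm 6 F 2 w' w • w) (w' + hermForm 6 F 2 w' w • w) = 0 := by
    rw [← e, act_form, hw']
  have h4 : w' + hermForm 6 F 2 w' w • w ≠ 0 := by
    rw [← e]
    intro h
    apply hw0'
    have := act_act_inv (tv w)⁻¹ w'
    rw [inv_inv, h] at this
    rw [← this, act_zero]
  apply Δ.eq_pt h4 h3 h1
  have h5 : Δ.ψ ⟨Δ.pt w * Δ.pt w' * (Δ.pt w)⁻¹, Subgroup.subset_closure h1⟩ =
      pr (tv (w' + hermForm 6 F 2 w' w • w)) := by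
    have e1 : (⟨Δ.pt w * Δ.pt w' * (Δ.pt w)⁻¹, Subgroup.subset_closure h1⟩ : ↥(Subgroup.closure (perp D d))) =
      ⟨Δ.pt w, Subgroup.subset_closure hm⟩ * ⟨Δ.pt w', Subgroup.subset_closure hm'⟩ *
        (⟨Δ.pt w, Subgroup.subset_closure hm⟩)⁻¹ := rfl
    rw [e1, map_mul, map_mul, map_inv, Δ.map_pt hw0 hw, Δ.map_pt hw0' hw', ← tv_conj_tv Δ.hF hw hw']
    rfl
  rw [Δ.map _ h1] at h5
  exact (pr_tv_inj Δ.hF (by norm_num) h4 (Δ.ne _ h1) h3 (Δ.iso _ h1)).1 h5.symm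

theorem list_mem {l : List (Fin 6 → F)} (h0 : ∀ u ∈ l, u ≠ 0 ∧ hermForm 6 F 2 u u = 0) :
    (l.map Δ.pt).prod ∈ Subgroup.closure (perp D d) := by
  apply Subgroup.list_prod_mem
  intro x hx
  obtain ⟨u, hu, rfl⟩ := List.mem_map.1 hx
  exact Subgroup.subset_closure (Δ.pt_mem (h0 u hu).1 (h0 u hu).2)

theorem map_list {l : List (Fin 6 → F)} (h0 : ∀ u ∈ l, u ≠ 0 ∧ hermForm 6 F 2 u u = 0) :
    Δ.ψ ⟨(l.map Δ.pt).prod, Δ.list_mem h0⟩ = pr (l.map tv).prod := by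
  induction l with
  | nil => exact Δ.ψ.map_one
  | cons u l ih =>
    have h1 : ∀ v ∈ l, v ≠ 0 ∧ hermForm 6 F 2 v v = 0 := fun v hv => h0 v (by simp [hv])
    have h2 := h0 u (by simp)
    have e1 : (⟨((u :: l).map Δ.pt).prod, Δ.list_mem h0⟩ : ↥(Subgroup.closure (perp D d))) =
      ⟨Δ.pt u, Subgroup.subset_closure (Δ.pt_mem h2.1 h2.2)⟩ * ⟨(l.map Δ.pt).prod, Δ.list_mem h1⟩ := by
      apply Subtype.ext; simp
    rw [e1, map_mul, Δ.map_pt h2.1 h2.2, ih h1, List.map_cons, List.prod_cons]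
    rfl

theorem mem_center_iff' {g : G} (hg : g ∈ Subgroup.closure (perp D d)) :
    (⟨g, hg⟩ : ↥(Subgroup.closure (perp D d))) ∈ Subgroup.center ↥(Subgroup.closure (perp D d)) ↔
      ∀ y ∈ perp D d, Commute y g := by
  rw [Subgroup.mem_center_iff]
  constructor
  · intro h y hy
    exact congrArg Subtype.val (h ⟨y, Subgroup.subset_closure hy⟩)
  · rintro h ⟨x, hx⟩
    apply Subtype.ext
    change Commute x g
    induction hx using Subgroup.closure_induction with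
    | mem y hy => exact h y hy
    | one => exact Commute.one_left _
    | mul a b _ _ ha hb => exact ha.mul_left hb
    | inv a _ ha => exact ha.inv_left

/-- A product of commuting points is central exactly if the sum of the rank one maps vanishes. -/
theorem central_iff {l : List (Fin 6 → F)} (h0 : ∀ u ∈ l, u ≠ 0 ∧ hermForm 6 F 2 u u = 0)
    (h : ∀ u ∈ l, ∀ v ∈ l, hermForm 6 F 2 u v = 0) :
    (∀ y ∈ perp D d, Commute y (l.map Δ.pt).prod) ↔ ∀ x, rk l x = 0 := by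
  rw [← mem_center_iff' (Δ.list_mem h0), ← Δ.ker, MonoidHom.mem_ker, Δ.map_list h0]
  constructor
  · intro h1
    exact rk_eq_zero_of_center Δ.hF (by norm_num) h (fun u hu => (h0 u hu).1) h1
  · intro h1
    rw [prod_tv_eq_one Δ.hF h h1]; rfl

end Dict

/-- The setting: a class of 3-transpositions of type M(22) with primitive action. -/
structure H22 (D : Set G) : Prop where
  cls : Cfsg.IsThreeTranspositionClass D
  irr : Irred D
  typ : T22 G D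
  conn : (Cfsg.commutingGraph D).Connected

namespace H22

variable [Finite G] (h : H22 D)

include h

omit [Finite G] in
theorem hconj : ∀ g : G, ∀ d ∈ D, g * d * g⁻¹ ∈ D := fun g _ hd => conj_mem h.cls hd g

theorem dict {d : G} (hd : d ∈ D) : ∃ (F : Type) (_ : Field F) (_ : Fintype F), Nonempty (Dict D d F) := by
  obtain ⟨F, i1, i2, hh⟩ := exists_dict h.cls h.irr h.typ
  exact ⟨F, i1, i2, hh d hd⟩

theorem exists_nc' {d : G} (hd : d ∈ D) : ∃ e ∈ D, ¬ Commute d e := exists_nc h.cls h.typ hd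

theorem perp_nonempty {d : G} (hd : d ∈ D) : (perp D d).Nonempty := by
  obtain ⟨a, ha, -⟩ := perp_nc h.cls h.typ hd
  exact ⟨a, ha⟩

omit [Finite G] h in
theorem perp_symm {a b : G} (ha : a ∈ D) (hb : b ∈ perp D a) : a ∈ perp D b := ⟨ha, hb.2.1.symm, hb.2.2.symm⟩

/-- `a` in `perp D d` has a non-commuting partner in `perp D d`. -/
theorem exists_nc_perp {d a : G} (hd : d ∈ D) (ha : a ∈ perp D d) : ∃ e ∈ perp D d, ¬ Commute a e := by
  obtain ⟨F, i1, i2, ⟨Δ⟩⟩ := h.dict hd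
  obtain ⟨w, hw0, hw, rfl⟩ := Δ.exists_pt ha
  obtain ⟨x, hx⟩ := exists_hyp' Δ.hF hw0 hw
  have hx0 : x ≠ 0 := by
    rintro rfl
    have := hx.2.2
    rw [hermForm_zero_right Δ.hF] at this
    exact zero_ne_one this
  refine ⟨Δ.pt x, Δ.pt_mem hx0 hx.2.1, ?_⟩
  rw [Δ.commute_pt hw0 hw hx0 hx.2.1, hx.2.2]
  exact one_ne_zero

/-- B3 -/
theorem line_of {a d e e' : G} (ha : a ∈ D) (hd : d ∈ perp D a) (he : e ∈ perp D a) (he' : e' ∈ perp D a)
    (hde : ¬ Commute d e) (hall : ∀ y ∈ perp D a, Commute y d → Commute y e → Commute y e') :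
    e' = d ∨ e' = e ∨ e' = d * e * d⁻¹ := by
  obtain ⟨F, i1, i2, ⟨Δ⟩⟩ := h.dict ha
  obtain ⟨u, hu0, hu, rfl⟩ := Δ.exists_pt hd
  obtain ⟨v, hv0, hv, rfl⟩ := Δ.exists_pt he
  obtain ⟨w, hw0, hw, rfl⟩ := Δ.exists_pt he'
  have huv : hermForm 6 F 2 u v ≠ 0 := fun h1 => hde ((Δ.commute_pt hu0 hu hv0 hv).2 h1)
  have key := line_of_perp Δ.hF (by norm_num) hu hv hw huv hw0 (by
    intro z hz h1 h2
    by_cases hz0 : z = 0
    · rw [hz0, hermForm_zero_left]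
    · rw [← Δ.commute_pt hz0 hz hw0 hw]
      exact hall _ (Δ.pt_mem hz0 hz) ((Δ.commute_pt hz0 hz hu0 hu).2 h1) ((Δ.commute_pt hz0 hz hv0 hv).2 h2))
  rcases key with h1 | h1 | h1
  · left; exact ((Δ.pt_eq_iff hu0 hu hw0 hw).2 h1).symm
  · right; left; exact ((Δ.pt_eq_iff hv0 hv hw0 hw).2 h1).symm
  · right; right
    rw [Δ.pt_conj h.cls hu0 hu hv0 hv]
    obtain ⟨c, hc, rfl⟩ := h1
    have h2 : v + hermForm 6 F 2 v u • u ≠ 0 := fun h2 => hw0 (by rw [h2, smul_zero])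
    have h3 : hermForm 6 F 2 (v + hermForm 6 F 2 v u • u) (v + hermForm 6 F 2 v u • u) = 0 := by
      rw [← tv_act Δ.hF hu v, act_form, hv]
    exact Δ.pt_smul h2 h3 hc

/-- B4 : the centraliser of `perp D d` is generated by `d`. -/
theorem centralizer_perp {d ζ : G} (hd : d ∈ D) (hζ : ∀ y ∈ perp D d, Commute y ζ) : ζ = 1 ∨ ζ = d := by
  have hct := h.typ.1
  have h1 : ζ * d * ζ⁻¹ = d := by
    by_contra hne
    apply not_same_comm (e := d) h.cls h.irr (conj_mem h.cls hd ζ) hd hne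
    · obtain ⟨a, ha⟩ := h.perp_nonempty hd
      exact ⟨_, perp_conj h.cls ζ ha⟩
    · ext y
      constructor
      · intro hy
        have h2 := perp_conj h.cls ζ⁻¹ hy
        rw [show ζ⁻¹ * (ζ * d * ζ⁻¹) * ζ⁻¹⁻¹ = d by group] at h2
        have h3 := hζ _ h2
        have h4 : ζ⁻¹ * y * ζ⁻¹⁻¹ = y := by
          have : ζ * (ζ⁻¹ * y * ζ⁻¹⁻¹) * ζ⁻¹ = ζ⁻¹ * y * ζ⁻¹⁻¹ := by rw [← h3.eq, mul_inv_cancel_right]
          rw [← this]; group
        rwa [h4] at h2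
      · intro hy
        have h2 := perp_conj h.cls ζ hy
        rwa [← (hζ y hy).eq, mul_inv_cancel_right] at h2
  have hζd : Commute ζ d := by
    have := mul_inv_eq_iff_eq_mul.1 h1
    exact this
  obtain ⟨a, ha⟩ := h.perp_nonempty hd
  obtain ⟨e, he, hde⟩ := h.exists_nc_perp ha.1 (perp_symm hd ha)
  have hda := perp_symm hd ha
  have key : ∀ η : G, (∀ y ∈ perp D d, Commute y η) → Commute η d → Commute η e → η = 1 := by
    intro η h2 h3 h4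
    have htop : Subgroup.centralizer ({η} : Set G) = ⊤ := by
      apply eq_top_of_perp_le h.cls h.irr hd he.1 hde hd ha.1 ha.2.1.symm ha.2.2 h.conn
      · exact Subgroup.mem_centralizer_singleton_iff.2 h4.eq.symm
      · intro y hy hdy
        rw [Subgroup.mem_centralizer_singleton_iff]
        by_cases hyd : y = d
        · rw [hyd]; exact h3.eq.symm
        · exact (h2 y ⟨hy, hyd, hdy⟩).eq
    have : η ∈ Subgroup.center G := by
      rw [Subgroup.mem_center_iff]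
      intro g
      have h5 : g ∈ Subgroup.centralizer ({η} : Set G) := by rw [htop]; trivial
      exact (Subgroup.mem_centralizer_singleton_iff.1 h5)
    rw [hct] at this
    exact this
  have hζa : ζ * a * ζ⁻¹ = a := by rw [← (hζ a ha).eq, mul_inv_cancel_right]
  have he' : ζ * e * ζ⁻¹ ∈ perp D a := by
    have := perp_conj h.cls ζ he
    rwa [hζa] at this
  have hline := h.line_of ha.1 hda he he' hde (by
    intro y hy h2 h3
    have hyd : y ∈ perp D d := by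
      refine ⟨hy.1, ?_, h2.symm⟩
      rintro rfl; exact hde h3
    have h4 : ζ * y * ζ⁻¹ = y := by rw [← (hζ y hyd).eq, mul_inv_cancel_right]
    rw [← h4, commute_conj_iff]
    exact h3)
  rcases hline with h2 | h2 | h2
  · exfalso
    have h3 : e = d := by
      have : ζ * e * ζ⁻¹ = ζ * d * ζ⁻¹ := by rw [h2, h1]
      exact mul_left_cancel (mul_right_cancel this)
    exact hde (by rw [h3])
  · left
    exact key ζ hζ hζd (mul_inv_eq_iff_eq_mul.1 h2)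
  · right
    have hdd := mul_self h.cls.1 hd
    have hdi := inv_eq h.cls.1 hd
    have h3 := key (d * ζ) (fun y hy => (hy.2.2.symm).mul_right (hζ y hy))
      ((Commute.refl d).mul_left hζd) (by
        have : d * ζ * e * (d * ζ)⁻¹ = e := by
          calc d * ζ * e * (d * ζ)⁻¹ = d * (ζ * e * ζ⁻¹) * d⁻¹ := by group
            _ = (d * d) * e * (d * d)⁻¹ := by rw [h2]; group
            _ = e := by rw [hdd]; group
        exact mul_inv_eq_iff_eq_mul.1 this)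
    have h4 := inv_eq_of_mul_eq_one_right h3
    rw [hdi] at h4
    exact h4.symm

/-- Four distinct commuting members of `perp D a` do not have central product. -/
theorem no_four_pt {a y1 y2 y3 y4 : G} (ha : a ∈ D) (h1 : y1 ∈ perp D a) (h2 : y2 ∈ perp D a) (h3 : y3 ∈ perp D a)
    (h4 : y4 ∈ perp D a) (n12 : y1 ≠ y2) (n32 : y3 ≠ y2) (n42 : y4 ≠ y2)
    (hc : ∀ x ∈ [y1, y2, y3, y4], ∀ y ∈ [y1, y2, y3, y4], Commute x y)
    (hz : ∀ y ∈ perp D a, Commute y (y1 * y2 * y3 * y4)) : False := by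
  obtain ⟨F, i1, i2, ⟨Δ⟩⟩ := h.dict ha
  obtain ⟨u1, a1, b1, rfl⟩ := Δ.exists_pt h1
  obtain ⟨u2, a2, b2, rfl⟩ := Δ.exists_pt h2
  obtain ⟨u3, a3, b3, rfl⟩ := Δ.exists_pt h3
  obtain ⟨u4, a4, b4, rfl⟩ := Δ.exists_pt h4
  have hl0 : ∀ u ∈ [u1, u2, u3, u4], u ≠ 0 ∧ hermForm 6 F 2 u u = 0 := by
    simp only [List.mem_cons, List.not_mem_nil, or_false, forall_eq_or_imp, forall_eq]
    exact ⟨⟨a1, b1⟩, ⟨a2, b2⟩, ⟨a3, b3⟩, ⟨a4, b4⟩⟩
  have hl : ∀ u ∈ [u1, u2, u3, u4], ∀ v ∈ [u1, u2, u3, u4], hermForm 6 F 2 u v = 0 := by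
    intro u hu v hv
    rw [← Δ.commute_pt (hl0 u hu).1 (hl0 u hu).2 (hl0 v hv).1 (hl0 v hv).2]
    apply hc
    · have := List.mem_map_of_mem (f := Δ.pt) hu; simpa using this
    · have := List.mem_map_of_mem (f := Δ.pt) hv; simpa using this
  have key := (Δ.central_iff hl0 hl).1 (by simpa [mul_assoc] using hz)
  exact no_four Δ.hF a1 a2 ((Δ.pt_ne_iff a1 b1 a2 b2).1 n12) ((Δ.pt_ne_iff a3 b3 a2 b2).1 n32)
    ((Δ.pt_ne_iff a4 b4 a2 b2).1 n42) key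

end H22

end Cfsg.Agent.FW
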