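import Cfsg.Agent.FW.C22

/-!
# The width
-/

set_option autoImplicit false
set_option linter.unusedSectionVars false

namespace Cfsg.Agent.FW

open Cfsg.Agent.Fi22

open Finset Matrix Module Cfsg.Agent.Uni Cfsg.Agent.ThreeTransp

section general

variable {G : Type*} [Group G] {D : Set G}

/-- the largest size of a commuting subset is `w` -/
def Wd (D : Set G) (w : ℕ) : Prop :=
  (∃ E : Set G, E ⊆ D ∧ (∀ a ∈ E, ∀ b ∈ E, Commute a b) ∧ E.ncard = w) ∧
    ∀ E : Set G, E ⊆ D → (∀ a ∈ E, ∀ b ∈ E, Commute a b) → E.ncard ≤ w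

theorem Wd.width [Finite G] {w : ℕ} (h : Wd D w) : Cfsg.commutingWidth D = w := by
  unfold Cfsg.commutingWidth
  apply IsGreatest.csSup_eq
  constructor
  · obtain ⟨E, h1, h2, h3⟩ := h.1
    exact ⟨E, h1, Set.toFinite _, h2, h3⟩
  · rintro n ⟨E, h1, -, h2, rfl⟩
    exact h.2 E h1 h2

theorem Wd.up [Finite G] {w : ℕ} (hne : D.Nonempty) (h : ∀ a ∈ D, Wd (perp D a) w) : Wd D (w + 1) := by
  constructor
  · obtain ⟨a, ha⟩ := hne
    obtain ⟨E, h1, h2, h3⟩ := (h a ha).1
    refine ⟨insert a E, ?_, ?_, ?_⟩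
    · rintro x (rfl | hx)
      · exact ha
      · exact (h1 hx).1
    · rintro x (rfl | hx) y (rfl | hy)
      · exact Commute.refl _
      · exact (h1 hy).2.2
      · exact (h1 hx).2.2.symm
      · exact h2 x hx y hy
    · rw [Set.ncard_insert_of_notMem (fun hx => (h1 hx).2.1 rfl) (Set.toFinite _), h3]
  · intro E hE hc
    by_cases hne : E.Nonempty
    · obtain ⟨a, ha⟩ := hne
      have h1 := (h a (hE ha)).2 (E \ {a}) (fun x hx => ⟨hE hx.1, hx.2, hc a ha x hx.1⟩)
        (fun x hx y hy => hc x hx.1 y hy.1)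
      rw [Set.ncard_sdiff_singleton_of_mem ha] at h1
      omega
    · rw [Set.not_nonempty_iff_eq_empty.1 hne, Set.ncard_empty]; omega

end general

section vec

variable {F : Type*} [Field F] [Fintype F]

theorem ti_finrank {W : Submodule F (Fin 6 → F)} (hF : Fintype.card F = 2 ^ 2)
    (hW : ∀ u ∈ W, ∀ v ∈ W, hermForm 6 F 2 u v = 0) : finrank F W ≤ 3 := by
  have h1 := finrank_perp hF W
  have h2 : W ≤ Uni.perp 2 W := fun x hx w hw => hW x hx w hw
  have h3 := Submodule.finrank_mono h2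
  omega

theorem card_ne_zero_sub (hF : Fintype.card F = 2 ^ 2) (W : Submodule F (Fin 6 → F)) :
    Nat.card {w : Fin 6 → F // w ≠ 0 ∧ w ∈ W} = 4 ^ finrank F W - 1 := by
  classical
  have h1 : Nat.card W = 4 ^ finrank F W := by
    rw [Module.natCard_eq_pow_finrank (K := F), Nat.card_eq_fintype_card, hF]
    norm_num
  have h2 : Nat.card {w : W // w ≠ 0} = 4 ^ finrank F W - 1 := by
    rw [← h1, Nat.card_eq_fintype_card, Nat.card_eq_fintype_card, Fintype.card_subtype_compl,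
      Fintype.card_subtype_eq]
  rw [← h2]
  refine Nat.card_congr ⟨fun w => ⟨⟨w.1, w.2.2⟩, fun h0 => w.2.1 (congrArg Subtype.val h0)⟩,
    fun w => ⟨w.1.1, fun h0 => w.2 (Subtype.ext h0), w.1.2⟩, fun w => rfl, fun w => rfl⟩

end vec

variable {G : Type*} [Group G] {D : Set G}

namespace H22

variable [Finite G] (h : H22 D)
include h

theorem wd_perp {a : G} (ha : a ∈ D) : Wd (perp D a) 21 := by
  classical
  obtain ⟨F, i1, i2, ⟨Δ⟩⟩ := h.dict ha
  have hF := Δ.hF
  constructor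
  · obtain ⟨u, v, hb⟩ := exists_HB (F := F) hF
    set W := Submodule.span F (Set.range u) with hW
    have hrk : finrank F W = 3 := by
      rw [hW, finrank_span_eq_card hb.li, Fintype.card_fin]
    have hti : ∀ x ∈ W, ∀ y ∈ W, hermForm 6 F 2 x y = 0 := by
      have h1 : W ≤ Uni.perp 2 W := by
        rw [hW, Submodule.span_le]
        rintro _ ⟨i, rfl⟩
        rw [SetLike.mem_coe, mem_perp_span hF]
        rintro _ ⟨j, rfl⟩
        exact hb.uu i j
      exact fun x hx y hy => h1 hx y hy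
    set S : Finset G := (NF D a).filter fun y => Δ.vec y ∈ W with hS
    have h1 := Δ.card_pts S (fun y hy => mem_NF.1 (Finset.mem_filter.1 hy).1)
    have h2 : Nat.card {w : Fin 6 → F // w ≠ 0 ∧ hermForm 6 F 2 w w = 0 ∧ Δ.pt w ∈ S} = 63 := by
      have h3 := card_ne_zero_sub hF W
      rw [hrk] at h3
      rw [← show (4 : ℕ) ^ 3 - 1 = 63 by norm_num, ← h3]
      have key : ∀ w : Fin 6 → F, (w ≠ 0 ∧ hermForm 6 F 2 w w = 0 ∧ Δ.pt w ∈ S) ↔ (w ≠ 0 ∧ w ∈ W) := by
        intro w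
        constructor
        · rintro ⟨h4, h5, h6⟩
          refine ⟨h4, ?_⟩
          obtain ⟨c, hc, hcw⟩ := Δ.pt_vec h4 h5
          have h7 := (Finset.mem_filter.1 h6).2
          rw [hcw] at h7
          have h8 := W.smul_mem c⁻¹ h7
          rwa [smul_smul, inv_mul_cancel₀ hc, one_smul] at h8
        · rintro ⟨h4, h5⟩
          have h6 := hti w h5 w h5
          refine ⟨h4, h6, Finset.mem_filter.2 ⟨mem_NF.2 (Δ.pt_mem h4 h6), ?_⟩⟩
          obtain ⟨c, hc, hcw⟩ := Δ.pt_vec h4 h6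
          rw [hcw]
          exact W.smul_mem c h5
      exact Nat.card_congr (Equiv.subtypeEquivRight key)
    rw [h2] at h1
    refine ⟨(S : Set G), fun y hy => mem_NF.1 (Finset.mem_filter.1 hy).1, ?_, by rw [Set.ncard_coe_finset]; omega⟩
    intro x hx y hy
    have hx' := Finset.mem_filter.1 hx
    have hy' := Finset.mem_filter.1 hy
    exact (Δ.comm x (mem_NF.1 hx'.1) y (mem_NF.1 hy'.1)).2 (hti _ hx'.2 _ hy'.2)
  · intro E hE hc
    set W := Submodule.span F (Δ.vec '' E) with hW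
    have hti : ∀ x ∈ W, ∀ y ∈ W, hermForm 6 F 2 x y = 0 := by
      have h1 : W ≤ Uni.perp 2 W := by
        rw [hW, Submodule.span_le]
        rintro _ ⟨i, hi, rfl⟩
        rw [SetLike.mem_coe, mem_perp_span hF]
        rintro _ ⟨j, hj, rfl⟩
        exact (Δ.comm i (hE hi) j (hE hj)).1 (hc i hi j hj)
      exact fun x hx y hy => h1 hx y hy
    set S : Finset G := (Set.toFinite E).toFinset with hS
    have hSE : ∀ y, y ∈ S ↔ y ∈ E := fun y => Set.Finite.mem_toFinset _
    have h1 := Δ.card_pts S (fun y hy => hE ((hSE y).1 hy))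
    have h3 := card_ne_zero_sub hF W
    have h4 := ti_finrank hF hti
    have h5 : 4 ^ finrank F W ≤ 4 ^ 3 := Nat.pow_le_pow_right (by norm_num) h4
    have h2 : Nat.card {w : Fin 6 → F // w ≠ 0 ∧ hermForm 6 F 2 w w = 0 ∧ Δ.pt w ∈ S} ≤
        Nat.card {w : Fin 6 → F // w ≠ 0 ∧ w ∈ W} := by
      refine Nat.card_le_card_of_injective (fun w => ⟨w.1, w.2.1, ?_⟩) ?_
      · obtain ⟨c, hc, hcw⟩ := Δ.pt_vec w.2.1 w.2.2.1
        have h7 : Δ.vec (Δ.pt w.1) ∈ W := Submodule.subset_span ⟨_, (hSE _).1 w.2.2.2, rfl⟩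
        rw [hcw] at h7
        have h8 := W.smul_mem c⁻¹ h7
        rwa [smul_smul, inv_mul_cancel₀ hc, one_smul] at h8
      · intro x y hxy
        have h9 : x.1 = y.1 := by simpa using hxy
        exact Subtype.ext h9
    have h6 : E.ncard = S.card := by
      rw [hS, Set.ncard_eq_toFinset_card]
    rw [h6]
    norm_num at h5
    omega

theorem wd : Wd D 22 := by
  obtain ⟨⟨d, hd⟩⟩ := h.conn.nonempty
  exact Wd.up ⟨d, hd⟩ fun a ha => h.wd_perp ha

end H22

end Cfsg.Agent.FW
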