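import Cfsg.Agent.Fi22.Cls
import Cfsg.Agent.ThreeTransp.TypeM

/-!
# Classes of 3-transpositions whose local group is the unitary group in dimension six: the weak hypothesis
-/

set_option autoImplicit false

namespace Cfsg.Agent.FW

open Cfsg.Agent.Fi22 Cfsg.Agent.ThreeTransp

/-- the part of `IsOfTypeM22` that concerns the members commuting with one member -/
def T22 (G : Type*) [Group G] (D : Set G) : Prop :=
  Subgroup.center G = ⊥ ∧ ∃ d ∈ D, ∃ c ∈ D, ¬ Commute d c ∧
    (∃ (F : Type) (_ : Field F) (_ : Fintype F), Fintype.card F = 4 ∧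
      Nonempty (↥(Subgroup.closure {y : G | y ∈ D ∧ y ≠ d ∧ Commute d y}) ⧸
        Subgroup.center ↥(Subgroup.closure {y : G | y ∈ D ∧ y ≠ d ∧ Commute d y}) ≃* Cfsg.PSU 6 F 2)) ∧ True

end Cfsg.Agent.FW
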