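import Cfsg.Agent.FW.Lev

/-!
# Standard counts
-/

set_option autoImplicit false
set_option linter.unusedSectionVars false

namespace Cfsg.Agent.FW

open Cfsg.Agent.Fi22

open Finset Cfsg.Agent.ThreeTransp

variable {G : Type*} [Group G] {D : Set G} [Finite G]

open Classical in
/-- the number of common commuting members of a noncommuting pair and a further member -/
structure Std (D : Set G) (μ ν s : ℕ) : Prop where
  mu : Mu D μ
  near : ∀ e ∈ D, ∀ c ∈ D, ¬ Commute e c → ∀ p ∈ NF D c \ NF D e, (NF D e ∩ NF D c ∩ NF D p).card = ν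
  aff : ∀ e ∈ D, ∀ c ∈ D, ¬ Commute e c → ∀ p ∈ Comb.aff (DF D) (NF D) e c (e * c * e⁻¹),
    (NF D e ∩ NF D c ∩ NF D p).card = s

theorem std_of {k l κ m1 m2 μ ν s A : ℕ} (h : Lev D k l κ m1 m2) (hmu : Mu D μ) (hμ0 : (μ : ℤ) ≠ 0)
    (hA : (A : ℤ) * μ = k * ((k : ℤ) - 1 - l))
    (h1 : (μ : ℤ) * ((l : ℤ) - m1) = ((k : ℤ) - μ) * ν)
    (h2 : (μ : ℤ) * (((l : ℤ) - m1) + m1 * ((κ : ℤ) - m2)) +
      (μ * (((μ : ℤ) - 1 - m1) * m1) - μ * (m1 * ((m1 : ℤ) - 1 - m2))) = ((k : ℤ) - μ) * ν ^ 2)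
    (h3 : (μ : ℤ) * ((k : ℤ) - 1 - l) - 2 * μ - 2 * (μ * ((l : ℤ) - m1)) = ((A : ℤ) - 2 - 2 * ((k : ℤ) - μ)) * s)
    (h4 : ((μ : ℤ) * (((k : ℤ) - 1 - l) + m1 * ((l : ℤ) - 1 - κ)) + μ * (((μ : ℤ) - 1 - m1) * ((μ : ℤ) - 1 - m1))) -
        2 * (μ : ℤ) ^ 2 - 2 * (μ * (((l : ℤ) - m1) + m1 * ((κ : ℤ) - m2)) +
        (μ * (((μ : ℤ) - 1 - m1) * m1) - μ * (m1 * ((m1 : ℤ) - 1 - m2)))) = ((A : ℤ) - 2 - 2 * ((k : ℤ) - μ)) * s ^ 2) :
    Std D μ ν s ∧ (DF D).card = 1 + k + A := by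
  classical
  have hpar : Comb.Par (DF D) (NF D) k l κ m1 m2 := by
    convert h.par
  have hcA : ∀ e ∈ D, (((DF D).filter (fun p => e ≠ p ∧ p ∉ NF D e)).card : ℤ) = A := by
    intro e he
    have := Comb.card_A hpar hmu (mem_DF.2 he)
    rw [← hA] at this
    exact mul_right_cancel₀ hμ0 this
  refine ⟨⟨hmu, ?_, ?_⟩, ?_⟩
  · intro e he c hc hec
    have L := line h.cls he hc hec
    have e1 := Comb.sum_near hpar hmu L.he L.hc L.nec L.ec
    have e2 := Comb.sum_near_sq hpar hmu L.he L.hc L.nec L.ec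
    have e3 : ((NF D c \ NF D e).card : ℤ) = k - μ := by
      have h1 := Comb.card_sdiff' (A := NF D c) (B := NF D e) (S := NF D c)
      have h2 : (NF D c \ NF D e) ∩ NF D c = NF D c \ NF D e := inter_eq_left.2 sdiff_subset
      have h3 : NF D c ∩ NF D e ∩ NF D c = NF D e ∩ NF D c := by
        rw [inter_comm (NF D c) (NF D e), inter_assoc, inter_self]
      rw [h2, h3, inter_self, hpar.c1 c L.hc, hmu e L.he c L.hc L.nec L.ec] at h1
      exact h1
    rw [h1, ← e3] at e1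
    rw [h2, ← e3] at e2
    exact Comb.const_of_sums _ ν e1 e2
  · intro e he c hc hec
    have L := line h.cls he hc hec
    obtain ⟨e1, e2, e3⟩ := Comb.aff_counts hpar hmu L
    rw [hcA e he] at e1
    rw [h3, ← e1] at e2
    rw [h4, ← e1] at e3
    exact Comb.const_of_sums _ s e2 e3
  · obtain ⟨a, ha, -⟩ := h.pr
    have e1 := Comb.card_D hpar (mem_DF.2 ha)
    rw [hcA a ha] at e1
    exact_mod_cast e1

/-- the numerical data available before knowing `μ` -/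
theorem pre {k l κ m1 m2 μ : ℕ} (h : Lev D k l κ m1 m2) (hmu : Mu D μ) : ∃ A : ℕ,
    (A : ℤ) * μ = k * ((k : ℤ) - 1 - l) ∧ (DF D).card = 1 + k + A ∧ (1 + k + A) ≡ μ [MOD 3] ∧
    ((μ : ℤ) * ((l : ℤ) - m1)) ^ 2 ≤ ((k : ℤ) - μ) * (μ * (((l : ℤ) - m1) + m1 * ((κ : ℤ) - m2)) +
      (μ * (((μ : ℤ) - 1 - m1) * m1) - μ * (m1 * ((m1 : ℤ) - 1 - m2)))) ∧
    ((μ : ℤ) * ((k : ℤ) - 1 - l) - 2 * μ - 2 * (μ * ((l : ℤ) - m1))) ^ 2 ≤
      ((A : ℤ) - 2 - 2 * ((k : ℤ) - μ)) *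
      ((μ * (((k : ℤ) - 1 - l) + m1 * ((l : ℤ) - 1 - κ)) + μ * (((μ : ℤ) - 1 - m1) * ((μ : ℤ) - 1 - m1))) -
        2 * (μ : ℤ) ^ 2 - 2 * (μ * (((l : ℤ) - m1) + m1 * ((κ : ℤ) - m2)) +
        (μ * (((μ : ℤ) - 1 - m1) * m1) - μ * (m1 * ((m1 : ℤ) - 1 - m2))))) := by
  classical
  have hpar : Comb.Par (DF D) (NF D) k l κ m1 m2 := by
    convert h.par
  obtain ⟨e, he, -⟩ := h.pr
  obtain ⟨c, hc, hec⟩ := h.nc e he
  have L := line h.cls he hc hec
  refine ⟨((DF D).filter (fun p => e ≠ p ∧ p ∉ NF D e)).card, Comb.card_A hpar hmu (mem_DF.2 he), ?_, ?_,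
    (Comb.ineqs hpar hmu L).1, (Comb.ineqs hpar hmu L).2⟩
  · have e1 := Comb.card_D hpar (mem_DF.2 he)
    exact_mod_cast e1
  · have e1 := Comb.card_D hpar (mem_DF.2 he)
    have e2 : (DF D).card = 1 + k + ((DF D).filter (fun p => e ≠ p ∧ p ∉ NF D e)).card := by exact_mod_cast e1
    rw [← e2, ← hmu e L.he c L.hc L.nec L.ec]
    exact mod_three h.cls he hc hec

theorem std22 (h : Lev D 693 180 51 45 12) : Std D 126 30 18 ∧ (DF D).card = 3510 := by
  obtain ⟨μ, hmu⟩ := exists_Mu h.cls h.irr h.pr h.nc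
  obtain ⟨A, h1, h2, h3, h4, h5⟩ := pre h hmu
  have hμ : (μ : ℤ) = 126 := by
    apply Num.mu22 (A := A) (by positivity)
    · rw [h1]; norm_num
    · have e1 : ((μ : ℤ) * ((180 : ℕ) - (45 : ℕ))) ^ 2 = (μ * 135) ^ 2 := by push_cast; ring
      rw [e1] at h4
      refine h4.trans (le_of_eq ?_)
      push_cast; ring
    · have e1 : ((μ : ℤ) * (((693 : ℕ) : ℤ) - 1 - (180 : ℕ)) - 2 * μ - 2 * (μ * (((180 : ℕ) : ℤ) - (45 : ℕ)))) ^ 2 =
        (240 * μ) ^ 2 := by push_cast; ring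
      rw [e1] at h5
      refine h5.trans (le_of_eq ?_)
      push_cast; ring
    · have h6 : (1 + 693 + A) % 3 = μ % 3 := h3
      omega
  have hμ' : μ = 126 := by exact_mod_cast hμ
  subst hμ'
  have hA : A = 2816 := by
    have : (A : ℤ) * 126 = 354816 := by
      have := h1; norm_num at this; linarith
    omega
  subst hA
  have := std_of (ν := 30) (s := 18) (A := 2816) h hmu (by norm_num) (by norm_num) (by norm_num) (by norm_num)
    (by norm_num) (by norm_num)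
  exact this

theorem std23 (h : Lev D 3510 693 180 126 45) : Std D 351 63 27 ∧ (DF D).card = 31671 := by
  obtain ⟨μ, hmu⟩ := exists_Mu h.cls h.irr h.pr h.nc
  obtain ⟨A, h1, h2, h3, h4, h5⟩ := pre h hmu
  have hμ : (μ : ℤ) = 351 := by
    apply Num.mu23 (A := A) (by positivity)
    · rw [h1]; norm_num
    · have e1 : ((μ : ℤ) * ((693 : ℕ) - (126 : ℕ))) ^ 2 = (μ * 567) ^ 2 := by push_cast; ring
      rw [e1] at h4
      refine h4.trans (le_of_eq ?_)
      push_cast; ring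
    · have e1 : ((μ : ℤ) * (((3510 : ℕ) : ℤ) - 1 - (693 : ℕ)) - 2 * μ - 2 * (μ * (((693 : ℕ) : ℤ) - (126 : ℕ)))) ^ 2 =
        (1680 * μ) ^ 2 := by push_cast; ring
      rw [e1] at h5
      refine h5.trans (le_of_eq ?_)
      push_cast; ring
  have hμ' : μ = 351 := by exact_mod_cast hμ
  subst hμ'
  have hA : A = 28160 := by
    have : (A : ℤ) * 351 = 9884160 := by
      have := h1; norm_num at this; linarith
    omega
  subst hA
  have := std_of (ν := 63) (s := 27) (A := 28160) h hmu (by norm_num) (by norm_num) (by norm_num) (by norm_num)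
    (by norm_num) (by norm_num)
  exact this

theorem std24 (h : Lev D 31671 3510 693 351 126) (hlow : ∀ μ, Mu D μ → 1728 ≤ μ) :
    Std D 3240 360 324 ∧ (DF D).card = 306936 := by
  obtain ⟨μ, hmu⟩ := exists_Mu h.cls h.irr h.pr h.nc
  obtain ⟨A, h1, h2, h3, h4, h5⟩ := pre h hmu
  have hμ : (μ : ℤ) = 3240 := by
    apply Num.mu24 (A := A) (by exact_mod_cast hlow μ hmu)
    · rw [h1]; norm_num
    · have e1 : ((μ : ℤ) * ((3510 : ℕ) - (351 : ℕ))) ^ 2 = (μ * 3159) ^ 2 := by push_cast; ring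
      rw [e1] at h4
      refine h4.trans (le_of_eq ?_)
      push_cast; ring
    · have e1 : ((μ : ℤ) * (((31671 : ℕ) : ℤ) - 1 - (3510 : ℕ)) - 2 * μ - 2 * (μ * (((3510 : ℕ) : ℤ) - (351 : ℕ)))) ^ 2 =
        (21840 * μ) ^ 2 := by push_cast; ring
      rw [e1] at h5
      refine h5.trans (le_of_eq ?_)
      push_cast; ring
  have hμ' : μ = 3240 := by exact_mod_cast hμ
  subst hμ'
  have hA : A = 275264 := by
    have : (A : ℤ) * 3240 = 891855360 := by
      have := h1; norm_num at this; linarith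
    omega
  subst hA
  have := std_of (ν := 360) (s := 324) (A := 275264) h hmu (by norm_num) (by norm_num) (by norm_num) (by norm_num)
    (by norm_num) (by norm_num)
  exact this

end Cfsg.Agent.FW
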