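import Cfsg.Agent.Fi22.SC
import Cfsg.Agent.FW.Std

/-!
# The centraliser of a member of the class
-/

set_option autoImplicit false
set_option linter.unusedSectionVars false

namespace Cfsg.Agent.FW

open Cfsg.Agent.Fi22

open Finset Cfsg.Agent.ThreeTransp Cfsg.Agent.Fi22.SC

variable {G : Type*} [Group G] {D : Set G} [Finite G]

/-- what is needed from a triple in an affine plane -/
def AffCommon (D : Set G) : Prop :=
  ∀ e ∈ D, ∀ c ∈ D, ∀ p ∈ D, ¬ Commute e c → ¬ Commute e p → ¬ Commute c p → ¬ Commute (e * c * e⁻¹) p →
    p ≠ e * c * e⁻¹ → ∃ a, a ∈ perp D e ∧ a ∈ perp D c ∧ a ∈ perp D p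

theorem affCommon_of {μ ν s : ℕ} (h : Std D μ ν s) (hcls : Cfsg.IsThreeTranspositionClass D) (hs : s ≠ 0) :
    AffCommon D := by
  classical
  intro e he c hc p hp h1 h2 h3 h4 h5
  have hmem : p ∈ Comb.aff (DF D) (NF D) e c (e * c * e⁻¹) := by
    unfold Comb.aff
    rw [mem_filter]
    have k1 := (nc_iff hp).2 h2
    have k2 := (nc_iff hp).2 h3
    have k3 := (nc_iff hp).2 h4
    exact ⟨mem_DF.2 hp, k1.1, k1.2, k2.1, k2.2, k3.1, k3.2⟩
  have hcard := h.aff e he c hc h1 p hmem
  have hne : (NF D e ∩ NF D c ∩ NF D p).Nonempty := by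
    rw [← Finset.card_pos]; omega
  obtain ⟨a, ha⟩ := hne
  rw [mem_inter, mem_inter, mem_NF, mem_NF, mem_NF] at ha
  exact ⟨a, ha.1.1, ha.1.2, ha.2⟩

theorem exists_nc_list (hcls : Cfsg.IsThreeTranspositionClass D) {k : ℕ} (hk : ∀ x ∈ D, (NF D x).card = k)
    (hN : 4 * (k + 1) < (DF D).card) (x y z w : G) (hx : x ∈ D) (hy : y ∈ D) (hz : z ∈ D) (hw : w ∈ D) :
    ∃ c ∈ D, ¬ Commute c x ∧ ¬ Commute c y ∧ ¬ Commute c z ∧ ¬ Commute c w := by
  classical
  have h1 : ((insert x (NF D x)) ∪ (insert y (NF D y)) ∪ (insert z (NF D z)) ∪ (insert w (NF D w))).card ≤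
      4 * (k + 1) := by
    have i1 : ∀ u ∈ D, (insert u (NF D u)).card ≤ k + 1 := fun u hu => by
      have := Finset.card_insert_le u (NF D u)
      rw [hk u hu] at this; exact this
    have j1 := Finset.card_union_le (insert x (NF D x)) (insert y (NF D y))
    have j2 := Finset.card_union_le (insert x (NF D x) ∪ insert y (NF D y)) (insert z (NF D z))
    have j3 := Finset.card_union_le (insert x (NF D x) ∪ insert y (NF D y) ∪ insert z (NF D z)) (insert w (NF D w))
    have := i1 x hx
    have := i1 y hy
    have := i1 z hz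
    have := i1 w hw
    omega
  obtain ⟨c, hc, hc2⟩ := Finset.exists_mem_notMem_of_card_lt_card (lt_of_le_of_lt h1 hN)
  rw [mem_DF] at hc
  have key : ∀ u, c ∉ insert u (NF D u) → ¬ Commute c u := by
    intro u hu hcu
    rw [mem_insert, not_or, mem_NF'] at hu
    exact hu.2 ⟨hc, hu.1, hcu.symm⟩
  simp only [mem_union, not_or] at hc2
  exact ⟨c, hc, key x hc2.1.1.1, key y hc2.1.1.2, key z hc2.1.2, key w hc2.2⟩

theorem data_of (hcls : Cfsg.IsThreeTranspositionClass D) {k : ℕ} (hk : ∀ x ∈ D, (NF D x).card = k)
    (hN : 4 * (k + 1) < (DF D).card) (haff : AffCommon D)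
    (hself : ∀ e ∈ D, e ∈ Subgroup.closure (perp D e))
    (hG5 : ∀ a ∈ D, ∀ e ∈ perp D a, ∀ g ∈ Subgroup.closure (perp D a), Commute g e →
      g ∈ Subgroup.closure (perp D e)) :
    SC.Data D (fun e => Subgroup.closure (perp D e)) where
  set := hcls.1
  conj := fun g _ d hd => conj_mem hcls hd g
  self := hself
  perp := fun e _ d hd hne hc => Subgroup.subset_closure ⟨hd, hne, hc⟩
  hconj := by
    intro g _ e he x hx
    change g * x * g⁻¹ ∈ Subgroup.closure (perp D (g * e * g⁻¹))
    change x ∈ Subgroup.closure (perp D e) at hx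
    induction hx using Subgroup.closure_induction with
    | mem y hy => exact Subgroup.subset_closure (perp_conj hcls g hy)
    | one => rw [mul_one, mul_inv_cancel]; exact one_mem _
    | mul a b _ _ ha hb =>
      have : g * (a * b) * g⁻¹ = (g * a * g⁻¹) * (g * b * g⁻¹) := by group
      rw [this]; exact mul_mem ha hb
    | inv a _ ha =>
      have : g * a⁻¹ * g⁻¹ = (g * a * g⁻¹)⁻¹ := by group
      rw [this]; exact inv_mem ha
  three := fun x hx y hy z hz => by
    obtain ⟨c, hc, h1, h2, h3, -⟩ := exists_nc_list hcls hk hN x y z z hx hy hz hz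
    exact ⟨c, hc, h1, h2, h3⟩
  four := fun x hx y hy z hz w hw _ => exists_nc_list hcls hk hN x y z w hx hy hz hw
  tri := by
    intro e he c hc c' hc' h1 h2 h3
    have hs := hcls.1
    have hcc' : T c' c = T c c' := (T_comm hs hc hc' h3).symm
    rw [hcc']
    have hce : T c e = T e c := (T_comm hs he hc h1).symm
    have hfD : T c c' ∈ D := conj_mem hcls hc' c
    by_cases hf : T c c' = e
    · -- line
      have e1 : c' = T e c := by
        rw [← hce]
        unfold T at hf ⊢
        rw [← hf]
        have s := inv_eq hs hc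
        have s2 := mul_self hs hc
        rw [s]
        calc c' = (c * c) * c' * (c * c) := by rw [s2]; group
          _ = _ := by group
      have e2 : T e c' = c := by
        rw [e1]
        unfold T
        have s := inv_eq hs he
        have s2 := mul_self hs he
        rw [s]
        calc e * (e * c * e) * e = (e * e) * c * (e * e) := by group
          _ = c := by rw [s2]; group
      rw [e2, hf, hce, ← e1]
      have e3 : c * e * c' = e := by
        rw [e1]
        unfold T
        have s := inv_eq hs he
        have s2 := mul_self hs he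
        have s3 := mul_self hs hc
        rw [s]
        calc c * e * (e * c * e) = c * (e * e) * c * e := by group
          _ = e := by rw [s2, mul_one, s3, one_mul]
      rw [e3]
      exact hself e he
    · by_cases hcomm : Commute e (T c c')
      · -- dual affine plane
        have e1 : T c c' * c * (T c c')⁻¹ = c' := T_conj_left hs hc hc' h3
        have e2 : T e c' = T c c' * T e c * (T c c')⁻¹ := by
          have e3 : T c c' * e * (T c c')⁻¹ = e := by rw [← hcomm.eq, mul_inv_cancel_right]
          calc T e c' = e * c' * e⁻¹ := rfl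
            _ = (T c c' * e * (T c c')⁻¹) * (T c c' * c * (T c c')⁻¹) * (T c c' * e * (T c c')⁻¹)⁻¹ := by rw [e1, e3]
            _ = T c c' * (e * c * e⁻¹) * (T c c')⁻¹ := by group
            _ = _ := rfl
        have e4 : T e c' * T c c' * T c e = T c c' := by
          rw [e2, hce]
          have := T_sq hs (x := e) hc
          calc T c c' * T e c * (T c c')⁻¹ * T c c' * T e c = T c c' * (T e c * T e c) := by group
            _ = _ := by rw [this, mul_one]
        rw [e4]
        exact Subgroup.subset_closure ⟨hfD, hf, hcomm⟩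
      · -- affine plane
        have h4 : ¬ Commute (e * c * e⁻¹) c' := by
          intro h5
          apply hcomm
          rw [third hs he hc h1] at h5
          have h6 : Commute (c⁻¹ * (c * e * c⁻¹) * c⁻¹⁻¹) (c⁻¹ * c' * c⁻¹⁻¹) := (commute_conj_iff c⁻¹).2 h5
          have h7 : c⁻¹ * (c * e * c⁻¹) * c⁻¹⁻¹ = e := by group
          rw [h7, inv_eq hs hc] at h6
          unfold T
          rw [inv_eq hs hc]
          rwa [inv_eq hs hc] at h6
        have h5 : c' ≠ e * c * e⁻¹ := by
          intro h5
          apply hf
          rw [h5, third hs he hc h1]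
          unfold T
          have s := inv_eq hs hc
          have s2 := mul_self hs hc
          rw [s]
          calc c * (c * e * c) * c = (c * c) * e * (c * c) := by group
            _ = e := by rw [s2]; group
        obtain ⟨a, ha1, ha2, ha3⟩ := haff e he c hc c' hc' h1 h2 h3 h4 h5
        have hea := H22.perp_symm he ha1
        have hca := H22.perp_symm hc ha2
        have hca' := H22.perp_symm hc' ha3
        have hTa : ∀ x ∈ perp D a, ∀ y ∈ perp D a, T x y ∈ Subgroup.closure (perp D a) := by
          intro x hx y hy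
          unfold T
          exact mul_mem (mul_mem (Subgroup.subset_closure hx) (Subgroup.subset_closure hy))
            (inv_mem (Subgroup.subset_closure hx))
        apply hG5 a ha1.1 e hea
        · exact mul_mem (mul_mem (hTa e hea c' hca') (hTa c hca c' hca')) (hTa c hca e hea)
        · have k1 := T_conj_right hs hc he (fun k => h1 k.symm)
          have k2 := T_conj_left hs hc hc' h3
          have k3 := T_conj_right hs he hc' h2
          have : (T e c' * T c c' * T c e) * e * (T e c' * T c c' * T c e)⁻¹ = e := by
            calc (T e c' * T c c' * T c e) * e * (T e c' * T c c' * T c e)⁻¹ =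
                T e c' * (T c c' * (T c e * e * (T c e)⁻¹) * (T c c')⁻¹) * (T e c')⁻¹ := by group
              _ = e := by rw [k1, k2, k3]
          exact mul_inv_eq_iff_eq_mul.1 this

end Cfsg.Agent.FW
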