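import Cfsg.Agent.Fi22.CoEx2
import Cfsg.Agent.FW.CoGood

/-!
# Coordinates adapted to a hexad, II
-/

set_option autoImplicit false
set_option maxHeartbeats 1600000
set_option linter.unusedSectionVars false

namespace Cfsg.Agent.FW

open Cfsg.Agent.Fi22

open Finset Matrix Module Cfsg.Agent.Uni Cfsg.Agent.ThreeTransp


open C6

variable {G : Type*} [Group G] {D : Set G}

namespace H22

variable [Finite G] (h : H22 D)

include h

theorem exists_co_good {d : G} (hd : d ∈ D) {a c e g y z : G} (hl : IsFact D 6 1 [a, c, e, g, y, z])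
    (hp : ∀ s ∈ [a, c, e, g, y, z], s ∈ perp D d) :
    ∃ C : Co D d, C.Good ∧ C.P E0 = a ∧ C.P E1 = c ∧ C.P E2 = e ∧ C.P E3 = g ∧
      (C.P E4 = y ∧ C.P E5 = z ∨ C.P E4 = z ∧ C.P E5 = y) := by
  obtain ⟨F, i1, i2, ⟨Δ⟩⟩ := h.dict hd
  obtain ⟨ω, hω⟩ := exists_omega Δ.hF
  obtain ⟨u0, u1, u2, hli, i0, i1, i2, i01, i02, i12, p0, p1, p2, p3, p45⟩ := h.exists_hex_vec hd Δ hω hl hp
  obtain ⟨U, V, hUV, hU⟩ := exists_HB_of_TI Δ.hF (k := 3) le_rfl (hli.isTI Δ.hF i0 i1 i2 i01 i02 i12)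
  have U0 : U 0 = u0 := hU 0
  have U1 : U 1 = u1 := hU 1
  have U2 : U 2 = u2 := hU 2
  refine ⟨Δ.co h hd hUV hω, Δ.co_good h hd hUV hω, ?_, ?_, ?_, ?_, ?_⟩
  · show Δ.pt (cv U V ω E0) = a
    rw [← p0]; simp [cv, E0, K4.val, U0]
  · show Δ.pt (cv U V ω E1) = c
    rw [← p1]; simp [cv, E1, K4.val, U1]
  · show Δ.pt (cv U V ω E2) = e
    rw [← p2]; simp [cv, E2, K4.val, U2]
  · show Δ.pt (cv U V ω E3) = g
    rw [← p3]; simp [cv, E3, K4.val, U0, U1, U2]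
  · have e4 : cv U V ω E4 = u0 + ω • u1 + ω ^ 2 • u2 := by simp [cv, E4, K4.val, U0, U1, U2]
    have e5 : cv U V ω E5 = u0 + ω ^ 2 • u1 + ω • u2 := by simp [cv, E5, K4.val, U0, U1, U2]
    show Δ.pt (cv U V ω E4) = y ∧ Δ.pt (cv U V ω E5) = z ∨ Δ.pt (cv U V ω E4) = z ∧ Δ.pt (cv U V ω E5) = y
    rw [e4, e5]
    exact p45

theorem exists_co {d : G} (hd : d ∈ D) {a c e g y z : G} (hl : IsFact D 6 1 [a, c, e, g, y, z])
    (hp : ∀ s ∈ [a, c, e, g, y, z], s ∈ perp D d) :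
    ∃ C : Co D d, C.P E0 = a ∧ C.P E1 = c ∧ C.P E2 = e ∧ C.P E3 = g ∧
      (C.P E4 = y ∧ C.P E5 = z ∨ C.P E4 = z ∧ C.P E5 = y) := by
  obtain ⟨C, -, hC⟩ := h.exists_co_good hd hl hp
  exact ⟨C, hC⟩

theorem exists_co_full {d : G} (hd : d ∈ D) {a c e g y z : G} (hl : IsFact D 6 1 [a, c, e, g, y, z])
    (hp : ∀ s ∈ [a, c, e, g, y, z], s ∈ perp D d) {b f : G} (hb : b ∈ perp D d) (hf : f ∈ perp D d)
    (be : Commute b e) (bg : Commute b g) (ba : ¬ Commute b a) (fa : Commute f a) (fc : Commute f c)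
    (fe : ¬ Commute f e) (bf : Commute b f) :
    ∃ C : Co D d, C.Good ∧ C.P E0 = a ∧ C.P E1 = c ∧ C.P E2 = e ∧ C.P E3 = g ∧
      (C.P E4 = y ∧ C.P E5 = z ∨ C.P E4 = z ∧ C.P E5 = y) ∧ C.P B1 = b ∧ C.P B2 = f := by
  obtain ⟨F, i1, i2, ⟨Δ⟩⟩ := h.dict hd
  have hF := Δ.hF
  obtain ⟨ω, hω⟩ := exists_omega Δ.hF
  obtain ⟨u0, u1, u2, hli, i0, i1, i2, i01, i02, i12, p0, p1, p2, p3, p45⟩ := h.exists_hex_vec hd Δ hω hl hp
  have e0 : u0 = (1 : F) • u0 + (0 : F) • u1 + (0 : F) • u2 := by simp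
  have e1 : u1 = (0 : F) • u0 + (1 : F) • u1 + (0 : F) • u2 := by simp
  have e2 : u2 = (0 : F) • u0 + (0 : F) • u1 + (1 : F) • u2 := by simp
  have e3 : u0 + u1 + u2 = (1 : F) • u0 + (1 : F) • u1 + (1 : F) • u2 := by simp
  have n0 := hli.ne (by simp) e0
  have n1 := hli.ne (by simp) e1
  have n2 := hli.ne (by simp) e2
  have n3 := hli.ne (by simp) e3
  have i3 : hermForm 6 F 2 (u0 + u1 + u2) (u0 + u1 + u2) = 0 := herm_comb hF i0 i1 i2 i01 i02 i12 e3 e3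
  obtain ⟨w, hw0, hw, eb⟩ := Δ.exists_pt hb
  obtain ⟨x, hx0, hx, ef⟩ := Δ.exists_pt hf
  have w2 : hermForm 6 F 2 w u2 = 0 := (Δ.commute_pt hw0 hw n2 i2).1 (by rw [p2, ← eb]; exact be)
  have w3 : hermForm 6 F 2 w (u0 + u1 + u2) = 0 := (Δ.commute_pt hw0 hw n3 i3).1 (by rw [p3, ← eb]; exact bg)
  have w0 : hermForm 6 F 2 w u0 ≠ 0 := fun h1 => ba (by
    have := (Δ.commute_pt hw0 hw n0 i0).2 h1
    rwa [p0, ← eb] at this)
  have w1 : hermForm 6 F 2 w u1 = hermForm 6 F 2 w u0 := by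
    rw [hermForm_add_right hF, hermForm_add_right hF, w2, add_zero] at w3
    calc hermForm 6 F 2 w u1 = hermForm 6 F 2 w u0 + (hermForm 6 F 2 w u0 + hermForm 6 F 2 w u1) := by
          rw [← add_assoc, add_self' hF, zero_add]
      _ = hermForm 6 F 2 w u0 := by rw [w3, add_zero]
  have x0 : hermForm 6 F 2 x u0 = 0 := (Δ.commute_pt hx0 hx n0 i0).1 (by rw [p0, ← ef]; exact fa)
  have x1 : hermForm 6 F 2 x u1 = 0 := (Δ.commute_pt hx0 hx n1 i1).1 (by rw [p1, ← ef]; exact fc)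
  have x2 : hermForm 6 F 2 x u2 ≠ 0 := fun h1 => fe (by
    have := (Δ.commute_pt hx0 hx n2 i2).2 h1
    rwa [p2, ← ef] at this)
  have wx : hermForm 6 F 2 w x = 0 := (Δ.commute_pt hw0 hw hx0 hx).1 (by rw [← eb, ← ef]; exact bf)
  set s := hermForm 6 F 2 w u0 with hs
  set t := hermForm 6 F 2 x u2 with ht
  obtain ⟨U, V, hUV, U0, U1, U2, V01, V2⟩ := exists_HB_full hF (wb := s⁻¹ • w) (wf := t⁻¹ • x) hli i0 i1 i2 i01 i02 i12
    (by rw [hermForm_smul_left, ← hs, inv_mul_cancel₀ w0]) (by rw [hermForm_smul_left, w1, inv_mul_cancel₀ w0])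
    (by rw [hermForm_smul_left, w2, mul_zero]) (by rw [hermForm_smul_left, x0, mul_zero])
    (by rw [hermForm_smul_left, x1, mul_zero]) (by rw [hermForm_smul_left, ← ht, inv_mul_cancel₀ x2])
    (herm_smul_self hw _) (herm_smul_self hx _)
    (by rw [hermForm_smul_left, hermForm_smul_right, wx, mul_zero, mul_zero])
  refine ⟨Δ.co h hd hUV hω, Δ.co_good h hd hUV hω, ?_, ?_, ?_, ?_, ?_, ?_, ?_⟩
  · show Δ.pt (cv U V ω E0) = a
    rw [← p0]; simp [cv, E0, K4.val, U0]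
  · show Δ.pt (cv U V ω E1) = c
    rw [← p1]; simp [cv, E1, K4.val, U1]
  · show Δ.pt (cv U V ω E2) = e
    rw [← p2]; simp [cv, E2, K4.val, U2]
  · show Δ.pt (cv U V ω E3) = g
    rw [← p3]; simp [cv, E3, K4.val, U0, U1, U2]
  · have e4 : cv U V ω E4 = u0 + ω • u1 + ω ^ 2 • u2 := by simp [cv, E4, K4.val, U0, U1, U2]
    have e5 : cv U V ω E5 = u0 + ω ^ 2 • u1 + ω • u2 := by simp [cv, E5, K4.val, U0, U1, U2]
    show Δ.pt (cv U V ω E4) = y ∧ Δ.pt (cv U V ω E5) = z ∨ Δ.pt (cv U V ω E4) = z ∧ Δ.pt (cv U V ω E5) = y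
    rw [e4, e5]
    exact p45
  · show Δ.pt (cv U V ω B1) = b
    have : cv U V ω B1 = s⁻¹ • w := by rw [← V01]; simp [cv, B1, K4.val]
    rw [this, eb]
    exact Δ.pt_smul hw0 hw (inv_ne_zero w0)
  · show Δ.pt (cv U V ω B2) = f
    have : cv U V ω B2 = t⁻¹ • x := by rw [← V2]; simp [cv, B2, K4.val]
    rw [this, ef]
    exact Δ.pt_smul hx0 hx (inv_ne_zero x2)

end H22

end Cfsg.Agent.FW
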