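import Cfsg.Agent.Fi22.Conf
import Cfsg.Agent.FW.FarEx
import Cfsg.Agent.Fi22.Y7

/-!
# The configuration of nine transpositions
-/

set_option autoImplicit false
set_option maxHeartbeats 1600000
set_option linter.unusedSectionVars false

namespace Cfsg.Agent.FW

open Cfsg.Agent.Fi22

open Finset Matrix Module Cfsg.Agent.Uni Cfsg.Agent.ThreeTransp

open C6


variable {G : Type*} [Group G] {D : Set G}

/-- a configuration of nine transpositions -/
structure Conf (D : Set G) where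
  i : G
  hi : i ∈ D
  C : Co D i
  hl : IsFact D 6 1 [C.P E0, C.P E1, C.P E2, C.P E3, C.P E4, C.P E5]
  h : G
  hh : h ∈ D
  nhi : ¬ Commute h i
  h0 : Commute h (C.P E0)
  h1 : Commute h (C.P E1)
  h2 : Commute h (C.P E2)
  h3 : Commute h (C.P E3)
  hb : Commute h (C.P B1)
  hf : Commute h (C.P B2)

theorem H22.exists_conf [Finite G] (H : H22 D) : Nonempty (Conf D) := by
  obtain ⟨⟨i, hi⟩⟩ := H.conn.nonempty
  obtain ⟨l, hl, hp⟩ := H.exists_hexad_off hi
  obtain ⟨a, c, e, g, y, z, rfl⟩ : ∃ a c e g y z, l = [a, c, e, g, y, z] := by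
    have h6 := hl.2.1
    match l, h6 with
    | [a, c, e, g, y, z], _ => exact ⟨a, c, e, g, y, z, rfl⟩
  obtain ⟨C, c0, c1, c2, c3, c45⟩ := H.exists_co hi hl hp
  have hl' : IsFact D 6 1 [C.P E0, C.P E1, C.P E2, C.P E3, C.P E4, C.P E5] := by
    rcases c45 with ⟨c4, c5⟩ | ⟨c4, c5⟩
    · rw [c0, c1, c2, c3, c4, c5]; exact hl
    · rw [c0, c1, c2, c3, c4, c5]
      exact fact_permute hl ((((List.Perm.swap _ _ _).cons _).cons _).cons _ |>.cons _)
  obtain ⟨x, hx, hxi, h0, h1, h2, h3, hb, hf⟩ := H.exists_far hi C hl'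
  exact ⟨⟨i, hi, C, hl', x, hx, hxi, h0, h1, h2, h3, hb, hf⟩⟩

namespace Conf

variable (K : Conf D)

abbrev a : G := K.C.P E0
abbrev b : G := K.C.P B1
abbrev c : G := K.C.P E1
abbrev d : G := K.C.P DD
abbrev e : G := K.C.P E2
abbrev f : G := K.C.P B2
abbrev g : G := K.C.P E3
abbrev p : G := K.C.P PP

theorem ma : K.a ∈ D := (K.C.mem _ iE0).1
theorem mb : K.b ∈ D := (K.C.mem _ iB1).1
theorem mc : K.c ∈ D := (K.C.mem _ iE1).1
theorem md : K.d ∈ D := (K.C.mem _ iDD).1
theorem me : K.e ∈ D := (K.C.mem _ iE2).1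
theorem mf : K.f ∈ D := (K.C.mem _ iB2).1
theorem mg : K.g ∈ D := (K.C.mem _ iE3).1
theorem mp : K.p ∈ D := (K.C.mem _ iPP).1

theorem ai : Commute K.a K.i := (K.C.mem _ iE0).2.2.symm
theorem bi : Commute K.b K.i := (K.C.mem _ iB1).2.2.symm
theorem ci : Commute K.c K.i := (K.C.mem _ iE1).2.2.symm
theorem di : Commute K.d K.i := (K.C.mem _ iDD).2.2.symm
theorem ei : Commute K.e K.i := (K.C.mem _ iE2).2.2.symm
theorem fi : Commute K.f K.i := (K.C.mem _ iB2).2.2.symm
theorem gi : Commute K.g K.i := (K.C.mem _ iE3).2.2.symm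
theorem pi : Commute K.p K.i := (K.C.mem _ iPP).2.2.symm

theorem ab : ¬ Commute K.a K.b := by rw [K.C.comm _ _ iE0 iB1]; decide
theorem ac : Commute K.a K.c := by rw [K.C.comm _ _ iE0 iE1]; decide
theorem ad : Commute K.a K.d := by rw [K.C.comm _ _ iE0 iDD]; decide
theorem ae : Commute K.a K.e := by rw [K.C.comm _ _ iE0 iE2]; decide
theorem af : Commute K.a K.f := by rw [K.C.comm _ _ iE0 iB2]; decide
theorem ag : Commute K.a K.g := by rw [K.C.comm _ _ iE0 iE3]; decide
theorem bc : ¬ Commute K.b K.c := by rw [K.C.comm _ _ iB1 iE1]; decide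
theorem bd : Commute K.b K.d := by rw [K.C.comm _ _ iB1 iDD]; decide
theorem be : Commute K.b K.e := by rw [K.C.comm _ _ iB1 iE2]; decide
theorem bf : Commute K.b K.f := by rw [K.C.comm _ _ iB1 iB2]; decide
theorem bg : Commute K.b K.g := by rw [K.C.comm _ _ iB1 iE3]; decide
theorem cd : ¬ Commute K.c K.d := by rw [K.C.comm _ _ iE1 iDD]; decide
theorem ce : Commute K.c K.e := by rw [K.C.comm _ _ iE1 iE2]; decide
theorem cf : Commute K.c K.f := by rw [K.C.comm _ _ iE1 iB2]; decide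
theorem cg : Commute K.c K.g := by rw [K.C.comm _ _ iE1 iE3]; decide
theorem de : ¬ Commute K.d K.e := by rw [K.C.comm _ _ iDD iE2]; decide
theorem df : Commute K.d K.f := by rw [K.C.comm _ _ iDD iB2]; decide
theorem dg : Commute K.d K.g := by rw [K.C.comm _ _ iDD iE3]; decide
theorem ef : ¬ Commute K.e K.f := by rw [K.C.comm _ _ iE2 iB2]; decide
theorem eg : Commute K.e K.g := by rw [K.C.comm _ _ iE2 iE3]; decide
theorem fg : ¬ Commute K.f K.g := by rw [K.C.comm _ _ iB2 iE3]; decide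

theorem pa : Commute K.p K.a := by rw [K.C.comm _ _ iPP iE0]; decide
theorem pb : Commute K.p K.b := by rw [K.C.comm _ _ iPP iB1]; decide
theorem pc : Commute K.p K.c := by rw [K.C.comm _ _ iPP iE1]; decide
theorem pd : ¬ Commute K.p K.d := by rw [K.C.comm _ _ iPP iDD]; decide
theorem pe : Commute K.p K.e := by rw [K.C.comm _ _ iPP iE2]; decide
theorem pf : Commute K.p K.f := by rw [K.C.comm _ _ iPP iB2]; decide
theorem pg : Commute K.p K.g := by rw [K.C.comm _ _ iPP iE3]; decide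

variable [Finite G] (H : H22 D)

include H

/-- a member far from `i` and commuting with the six members does not commute with the centre -/
theorem far_not {x : G} (hx : x ∈ D) (hxi : ¬ Commute x K.i) (x0 : Commute x K.a) (x1 : Commute x K.c)
    (x2 : Commute x K.e) (x3 : Commute x K.g) (xb : Commute x K.b) (xf : Commute x K.f) : ¬ Commute x K.d := by
  intro xd
  have hnd := K.hl.1
  simp only [List.nodup_cons, List.mem_cons, List.not_mem_nil, or_false, not_or, List.nodup_nil, and_true,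
    not_false_eq_true] at hnd
  obtain ⟨⟨n12, n13, -⟩, ⟨n23, -⟩, -⟩ := hnd
  have x4 : Commute x (K.C.P E4) := H.six_all K.hl hx (a := K.C.P E0) (b := K.C.P E1) (c := K.C.P E2) (by simp)
    (by simp) (by simp) n12 n13 n23 x0 x1 x2 (by simp)
  have x5 : Commute x (K.C.P E5) := H.six_all K.hl hx (a := K.C.P E0) (b := K.C.P E1) (c := K.C.P E2) (by simp)
    (by simp) (by simp) n12 n13 n23 x0 x1 x2 (by simp)
  have m1 := K.C.clos H hx iB1 iE1 xb x1
  have m2 := K.C.clos H hx iDD iE5 xd x5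
  have m3 := K.C.clos H hx (p := cj B1 E1) (q := cj DD E5) (by decide) (by decide) m1 m2
  have m4 := K.C.clos H hx iDD iE4 xd x4
  have m5 := K.C.clos H hx iB2 iE5 xf x5
  have m6 := K.C.clos H hx (p := cj DD E4) (q := cj B2 E5) (by decide) (by decide) m4 m5
  have m7 := K.C.clos H hx (p := cj (cj B1 E1) (cj DD E5)) (q := cj (cj DD E4) (cj B2 E5)) (by decide) (by decide)
    m3 m6
  have m8 := K.C.clos H hx iE0 iB1 x0 xb
  have e : cj (cj (cj B1 E1) (cj DD E5)) (cj (cj DD E4) (cj B2 E5)) = add (cj E0 B1) (sm .w B2) := by decide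
  rw [e] at m7
  exact K.C.three H hx hxi (p := cj E0 B1) (q := B2) (by decide) iB2 (by decide) (by decide) m8 xf (k := .w)
    (by decide) m7

theorem hd : ¬ Commute K.h K.d := K.far_not H K.hh K.nhi K.h0 K.h1 K.h2 K.h3 K.hb K.hf

/-- `h` does not commute with the diagonal point -/
theorem hp : ¬ Commute K.h K.p := by
  have := K.C.three H K.hh K.nhi (p := E0) (q := E1) iE0 iE1 (by decide) (by decide) K.h0 K.h1 (k := .o) (by decide)
  have e : add E0 (sm .o E1) = PP := by decide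
  rwa [e] at this

omit H [Finite G] in
theorem conj_comm {x y z : G} (h1 : Commute x z) (h2 : Commute y z) : Commute (x * y * x⁻¹) z :=
  (h1.mul_left h2).mul_left h1.inv_left

theorem php_d : ¬ Commute (K.p * K.h * K.p⁻¹) K.d := by
  apply K.far_not H (H.hconj _ _ K.hh)
  · intro h1
    apply K.nhi
    have h2 := (commute_conj_iff (x := K.p * K.h * K.p⁻¹) (y := K.i) K.p⁻¹).2 h1
    have e1 : K.p⁻¹ * (K.p * K.h * K.p⁻¹) * K.p⁻¹⁻¹ = K.h := by group
    have e2 : K.p⁻¹ * K.i * K.p⁻¹⁻¹ = K.i := by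
      rw [inv_inv, mul_assoc, ← K.pi.eq, ← mul_assoc, inv_mul_cancel, one_mul]
    rwa [e1, e2] at h2
  · exact conj_comm K.pa K.h0
  · exact conj_comm K.pc K.h1
  · exact conj_comm K.pe K.h2
  · exact conj_comm K.pg K.h3
  · exact conj_comm K.pb K.hb
  · exact conj_comm K.pf K.hf

/-- the conjugate of `h` under the product of `i` and the diagonal point -/
noncomputable def q : G := K.i * (K.p * K.h * K.p⁻¹) * K.i⁻¹

omit H [Finite G] in
theorem q_def : K.q = K.i * (K.p * K.h * K.p⁻¹) * K.i⁻¹ := rfl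

theorem mq : K.q ∈ D := H.hconj _ _ (H.hconj _ _ K.hh)

omit H [Finite G] in
theorem qa : Commute K.q K.a := conj_comm K.ai.symm (conj_comm K.pa K.h0)
omit H [Finite G] in
theorem qb : Commute K.q K.b := conj_comm K.bi.symm (conj_comm K.pb K.hb)
omit H [Finite G] in
theorem qc : Commute K.q K.c := conj_comm K.ci.symm (conj_comm K.pc K.h1)
omit H [Finite G] in
theorem qe : Commute K.q K.e := conj_comm K.ei.symm (conj_comm K.pe K.h2)
omit H [Finite G] in
theorem qf : Commute K.q K.f := conj_comm K.fi.symm (conj_comm K.pf K.hf)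
omit H [Finite G] in
theorem qg : Commute K.q K.g := conj_comm K.gi.symm (conj_comm K.pg K.h3)

theorem qd : ¬ Commute K.q K.d := by
  intro h1
  apply K.php_d H
  have h2 := (commute_conj_iff (x := K.q) (y := K.d) K.i⁻¹).2 h1
  have e1 : K.i⁻¹ * K.q * K.i⁻¹⁻¹ = K.p * K.h * K.p⁻¹ := by rw [q_def]; group
  have e2 : K.i⁻¹ * K.d * K.i⁻¹⁻¹ = K.d := by
    rw [inv_inv, mul_assoc, K.di.eq, ← mul_assoc, inv_mul_cancel, one_mul]
  rwa [e1, e2] at h2

theorem hq : Commute K.h K.q := by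
  have hi := inv_eq H.cls.1 K.hi
  have hh := inv_eq H.cls.1 K.hh
  have hp := inv_eq H.cls.1 K.mp
  have b1 := braid H.cls.1 K.hh K.hi K.nhi
  have b2 := braid H.cls.1 K.hh K.mp (K.hp H)
  have sh := mul_self H.cls.1 K.hh
  have si := mul_self H.cls.1 K.hi
  have sp := mul_self H.cls.1 K.mp
  have cpi := K.pi
  rw [q_def, hi, hp]
  -- conjugating by `h`
  rw [commute_iff_eq]
  have e1 : K.i * (K.p * K.h * K.p) * K.i = K.p * (K.h * K.i * K.h) * K.p := by
    rw [b1]
    calc K.i * (K.p * K.h * K.p) * K.i = (K.i * K.p) * K.h * (K.p * K.i) := by group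
      _ = (K.p * K.i) * K.h * (K.i * K.p) := by rw [cpi.eq]
      _ = _ := by group
  have key : K.h * (K.i * (K.p * K.h * K.p) * K.i) * K.h = K.i * (K.p * K.h * K.p) * K.i := by
    calc K.h * (K.i * (K.p * K.h * K.p) * K.i) * K.h = K.h * (K.p * (K.h * K.i * K.h) * K.p) * K.h := by rw [e1]
      _ = (K.h * K.p * K.h) * K.i * (K.h * K.p * K.h) := by group
      _ = (K.p * K.h * K.p) * K.i * (K.p * K.h * K.p) := by rw [b2]
      _ = K.p * K.h * ((K.p * K.i) * K.p) * K.h * K.p := by group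
      _ = K.p * K.h * K.i * (K.p * K.p) * K.h * K.p := by rw [cpi.eq]; group
      _ = K.p * (K.h * K.i * K.h) * K.p := by rw [sp]; group
      _ = _ := e1.symm
  calc K.h * (K.i * (K.p * K.h * K.p) * K.i) = K.h * (K.i * (K.p * K.h * K.p) * K.i) * (K.h * K.h) := by
        rw [sh, mul_one]
    _ = (K.h * (K.i * (K.p * K.h * K.p) * K.i) * K.h) * K.h := by group
    _ = _ := by rw [key]

theorem qh_ne : K.q ≠ K.h := by
  intro h1
  have b1 := braid H.cls.1 K.hh K.hi K.nhi
  have b2 := braid H.cls.1 K.hh K.mp (K.hp H)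
  have si := mul_self H.cls.1 K.hi
  have hi := inv_eq H.cls.1 K.hi
  rw [q_def, hi, inv_eq H.cls.1 K.mp] at h1
  have h2 : K.p * K.h * K.p = K.i * K.h * K.i := by
    calc K.p * K.h * K.p = (K.i * K.i) * (K.p * K.h * K.p) * (K.i * K.i) := by rw [si]; group
      _ = K.i * (K.i * (K.p * K.h * K.p) * K.i) * K.i := by group
      _ = K.i * K.h * K.i := by rw [h1]
  rw [← b1, ← b2] at h2
  have h3 : K.p = K.i := mul_left_cancel (mul_right_cancel h2)
  exact (K.C.mem _ iPP).2.1 h3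

end Conf

end Cfsg.Agent.FW
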