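import Cfsg.Agent.Fi22.Conf4
import Cfsg.Agent.FW.Conf3

/-!
# The three relations
-/

set_option autoImplicit false
set_option linter.unusedSectionVars false
set_option synthInstance.maxSize 2000
set_option synthInstance.maxHeartbeats 400000

namespace Cfsg.Agent.FW

open Cfsg.Agent.Fi22

open Finset Matrix Module Cfsg.Agent.Uni Cfsg.Agent.ThreeTransp

open C6

variable {G : Type*} [Group G] {D : Set G}


namespace Conf

namespace CH

variable {K : Conf D} [Finite G] (H : H22 D) (A : K.CH)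

include H A

theorem commute_conj_of {ζ x y : G} (h : Commute ζ x) : Commute (ζ * y * ζ⁻¹) x ↔ Commute y x := by
  rw [cc_iff, conj_of_comm h]

/-- an element commuting with a spanning set -/
theorem fix_span {ζ : G} (hh : Commute ζ K.h) (hc : Commute ζ K.c) (he : Commute ζ K.e) (hb : Commute ζ K.b)
    (hf : Commute ζ K.f) (hdel : Commute ζ K.del) (hag : Commute ζ K.a ∨ Commute ζ K.g)
    (hv : Commute ζ (A.C.P V0)) : ζ = 1 ∨ ζ = K.h := by
  obtain ⟨α, β, γ, ed, hi, nb, nf⟩ := A.del_code H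
  obtain ⟨s, -, s2, s3⟩ := A.good.lin ζ hh
  have xc : Commute ζ (A.C.P E1) := by rw [A.c]; exact hc
  have xe : Commute ζ (A.C.P E2) := by rw [A.e]; exact he
  have xb : Commute ζ (A.C.P B1) := by rw [A.b]; exact hb
  have xf : Commute ζ (A.C.P B2) := by rw [A.f]; exact hf
  rw [ed] at hdel
  have t1 := s2 _ _ iE1 iB1 xc xb (by decide)
  have t2 := s2 _ _ hi iB1 hdel xb nb
  have t3 := s2 _ _ hi iB2 hdel xf nf
  have t4 := s2 _ _ iE2 iB2 xe xf (by decide)
  rcases hag with ha | ha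
  · have xa : Commute ζ (A.C.P E0) := by rw [A.a]; exact ha
    have t5 := s2 _ _ iE0 iB1 xa xb (by decide)
    have t6 := s2 _ _ iE0 iV0 xa hv (by decide)
    apply s3 [E0, E1, E2, B1, B2, V0]
    · intro p hp
      simp only [List.mem_cons, List.not_mem_nil, or_false] at hp
      rcases hp with rfl | rfl | rfl | rfl | rfl | rfl
      · exact ⟨iE0, xa⟩
      · exact ⟨iE1, xc⟩
      · exact ⟨iE2, xe⟩
      · exact ⟨iB1, xb⟩
      · exact ⟨iB2, xf⟩
      · exact ⟨iV0, hv⟩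
    · have key : ∀ p ∈ [E0, E1, E2, B1, B2, V0], s p = s B1 := by
        intro p hp
        simp only [List.mem_cons, List.not_mem_nil, or_false] at hp
        rcases hp with rfl | rfl | rfl | rfl | rfl | rfl
        · exact t5
        · exact t1
        · rw [t4, ← t3, t2]
        · rfl
        · rw [← t3, t2]
        · rw [← t6, t5]
      intro p hp q hq
      rw [key p hp, key q hq]
    · simp
    · intro x hx
      have k0 := hx E0 (by simp)
      have k1 := hx E1 (by simp)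
      have k2 := hx E2 (by simp)
      have k3 := hx B1 (by simp)
      have k4 := hx B2 (by simp)
      have k5 := hx V0 (by simp)
      obtain ⟨a, b, c, x, y, t⟩ := x
      have key : ∀ a b c x y t : K4, fm ⟨a, b, c, x, y, t⟩ E0 = .z → fm ⟨a, b, c, x, y, t⟩ E1 = .z →
          fm ⟨a, b, c, x, y, t⟩ E2 = .z → fm ⟨a, b, c, x, y, t⟩ B1 = .z → fm ⟨a, b, c, x, y, t⟩ B2 = .z →
          fm ⟨a, b, c, x, y, t⟩ V0 = .z → (⟨a, b, c, x, y, t⟩ : C6) = C6.zero := by decide +kernel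
      exact key _ _ _ _ _ _ k0 k1 k2 k3 k4 k5
  · have xa : Commute ζ (A.C.P E3) := by rw [A.g]; exact ha
    have t5 := s2 _ _ iE3 iB2 xa xf (by decide)
    have t6 := s2 _ _ iE3 iV0 xa hv (by decide)
    apply s3 [E3, E1, E2, B1, B2, V0]
    · intro p hp
      simp only [List.mem_cons, List.not_mem_nil, or_false] at hp
      rcases hp with rfl | rfl | rfl | rfl | rfl | rfl
      · exact ⟨iE3, xa⟩
      · exact ⟨iE1, xc⟩
      · exact ⟨iE2, xe⟩
      · exact ⟨iB1, xb⟩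
      · exact ⟨iB2, xf⟩
      · exact ⟨iV0, hv⟩
    · have key : ∀ p ∈ [E3, E1, E2, B1, B2, V0], s p = s B2 := by
        intro p hp
        simp only [List.mem_cons, List.not_mem_nil, or_false] at hp
        rcases hp with rfl | rfl | rfl | rfl | rfl | rfl
        · exact t5
        · rw [t1, ← t2, t3]
        · exact t4
        · rw [← t2, t3]
        · rfl
        · rw [← t6, t5]
      intro p hp q hq
      rw [key p hp, key q hq]
    · simp
    · intro x hx
      have k0 := hx E3 (by simp)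
      have k1 := hx E1 (by simp)
      have k2 := hx E2 (by simp)
      have k3 := hx B1 (by simp)
      have k4 := hx B2 (by simp)
      have k5 := hx V0 (by simp)
      obtain ⟨a, b, c, x, y, t⟩ := x
      have key : ∀ a b c x y t : K4, fm ⟨a, b, c, x, y, t⟩ E3 = .z → fm ⟨a, b, c, x, y, t⟩ E1 = .z →
          fm ⟨a, b, c, x, y, t⟩ E2 = .z → fm ⟨a, b, c, x, y, t⟩ B1 = .z → fm ⟨a, b, c, x, y, t⟩ B2 = .z →
          fm ⟨a, b, c, x, y, t⟩ V0 = .z → (⟨a, b, c, x, y, t⟩ : C6) = C6.zero := by decide +kernel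
      exact key _ _ _ _ _ _ k0 k1 k2 k3 k4 k5

theorem q_del : Commute K.q K.del := by
  obtain ⟨α, β, γ, ed, hi, -, -⟩ := A.del_code H
  rw [← A.q, ed, A.C.comm _ _ iPP hi]
  have : ∀ α β γ : K4, PP.fm ⟨α, β, γ, .z, .z, .z⟩ = .z := by decide
  exact this _ _ _

/-- an element commuting with the configuration around `h` and with `d` is trivial -/
theorem fix_one {ζ : G} (hh : Commute ζ K.h) (hc : Commute ζ K.c) (he : Commute ζ K.e) (hb : Commute ζ K.b)
    (hf : Commute ζ K.f) (hd : Commute ζ K.d) (hag : Commute ζ K.a ∨ Commute ζ K.g) : ζ = 1 := by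
  have hdel : Commute ζ K.del := by
    rw [del_def]
    exact (((((((hd.mul_right hh).mul_right he).mul_right hc).mul_right hd).mul_right hc).mul_right he).mul_right
      hh).mul_right hd
  have m0 := A.C.mem _ iV0
  have m1 : ζ * A.C.P V0 * ζ⁻¹ ∈ perp D K.h := by
    have h1 := (perp_conj_iff H.hconj (d := K.h) (y := A.C.P V0) ζ).2 m0
    have h2 : ζ * K.h * ζ⁻¹ = K.h := by rw [hh.eq, mul_inv_cancel_right]
    rwa [h2] at h1
  obtain ⟨η, hη, eη⟩ := A.C.surj _ m1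
  have xc : Commute ζ (A.C.P E1) := by rw [A.c]; exact hc
  have xe : Commute ζ (A.C.P E2) := by rw [A.e]; exact he
  have xb : Commute ζ (A.C.P B1) := by rw [A.b]; exact hb
  have xf : Commute ζ (A.C.P B2) := by rw [A.f]; exact hf
  have k1 : η.fm E1 = .z := by
    rw [← A.C.comm _ _ hη iE1, ← eη, commute_conj_of H A xc, A.C.comm _ _ iV0 iE1]; decide
  have k2 : η.fm E2 = .z := by
    rw [← A.C.comm _ _ hη iE2, ← eη, commute_conj_of H A xe, A.C.comm _ _ iV0 iE2]; decide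
  have k3 : η.fm B1 = .z := by
    rw [← A.C.comm _ _ hη iB1, ← eη, commute_conj_of H A xb, A.C.comm _ _ iV0 iB1]; decide
  have k4 : η.fm B2 = .z := by
    rw [← A.C.comm _ _ hη iB2, ← eη, commute_conj_of H A xf, A.C.comm _ _ iV0 iB2]; decide
  have k5 : η.fm E0 ≠ .z ∨ η.fm E3 ≠ .z := by
    rcases hag with ha | ha
    · left
      have xa : Commute ζ (A.C.P E0) := by rw [A.a]; exact ha
      rw [Ne, ← A.C.comm _ _ hη iE0, ← eη, commute_conj_of H A xa, A.C.comm _ _ iV0 iE0]; decide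
    · right
      have xa : Commute ζ (A.C.P E3) := by rw [A.g]; exact ha
      rw [Ne, ← A.C.comm _ _ hη iE3, ← eη, commute_conj_of H A xa, A.C.comm _ _ iV0 iE3]; decide
  have key : ∀ a b c x y t : K4, iso ⟨a, b, c, x, y, t⟩ = true → fm ⟨a, b, c, x, y, t⟩ E1 = .z →
      fm ⟨a, b, c, x, y, t⟩ E2 = .z → fm ⟨a, b, c, x, y, t⟩ B1 = .z → fm ⟨a, b, c, x, y, t⟩ B2 = .z →
      (fm ⟨a, b, c, x, y, t⟩ E0 ≠ .z ∨ fm ⟨a, b, c, x, y, t⟩ E3 ≠ .z) →
      ∃ m : K4, m ≠ .z ∧ ((⟨a, b, c, x, y, t⟩ : C6) = sm m V0 ∨ (⟨a, b, c, x, y, t⟩ : C6) = sm m (cj V0 PP)) := by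
    decide +kernel
  have hη2 : ζ * A.C.P V0 * ζ⁻¹ = A.C.P V0 ∨ ζ * A.C.P V0 * ζ⁻¹ = A.C.P (cj V0 PP) := by
    obtain ⟨a, b, c, x, y, t⟩ := η
    obtain ⟨m, hm, h1 | h1⟩ := key a b c x y t hη k1 k2 k3 k4 k5
    · left
      rw [eη, h1, A.C.smul _ _ hm iV0]
    · right
      rw [eη, h1, A.C.smul _ _ hm (by decide)]
  rcases hη2 with h1 | h1
  · have hv : Commute ζ (A.C.P V0) := mul_inv_eq_iff_eq_mul.1 h1
    rcases A.fix_span H hh hc he hb hf hdel hag hv with h2 | h2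
    · exact h2
    · exfalso; apply K.hd H; rw [← h2]; exact hd
  · exfalso
    rw [← A.C.conj _ _ iV0 iPP, A.q] at h1
    have hq := K.hq H
    have hv : Commute (K.q⁻¹ * ζ) (A.C.P V0) := by
      apply mul_inv_eq_iff_eq_mul.1
      calc K.q⁻¹ * ζ * A.C.P V0 * (K.q⁻¹ * ζ)⁻¹ = K.q⁻¹ * (ζ * A.C.P V0 * ζ⁻¹) * K.q := by group
        _ = A.C.P V0 := by rw [h1]; group
    have hag' : Commute (K.q⁻¹ * ζ) K.a ∨ Commute (K.q⁻¹ * ζ) K.g := by
      rcases hag with ha | ha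
      · exact Or.inl (K.qa.inv_left.mul_left ha)
      · exact Or.inr (K.qg.inv_left.mul_left ha)
    rcases A.fix_span H (hq.symm.inv_left.mul_left hh) (K.qc.inv_left.mul_left hc) (K.qe.inv_left.mul_left he)
      (K.qb.inv_left.mul_left hb) (K.qf.inv_left.mul_left hf) ((A.q_del H).inv_left.mul_left hdel) hag' hv with h2 | h2
    · have h3 : ζ = K.q := (inv_mul_eq_one.1 h2).symm
      apply K.qd H; rw [← h3]; exact hd
    · have h3 : ζ = K.q * K.h := inv_mul_eq_iff_eq_mul.1 h2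
      rw [h3] at hd
      have sq := mul_self H.cls.1 (K.mq H)
      have b1 := braid H.cls.1 (K.mq H) K.md (K.qd H)
      have b2 := braid H.cls.1 K.hh K.md (K.hd H)
      have h4 : K.h * K.d * K.h = K.q * K.d * K.q := by
        have sh := mul_self H.cls.1 K.hh
        calc K.h * K.d * K.h = (K.q * K.q) * K.h * K.d * K.h := by rw [sq, one_mul]
          _ = K.q * (K.q * K.h * K.d) * K.h := by group
          _ = K.q * (K.d * (K.q * K.h)) * K.h := by rw [hd.eq]
          _ = K.q * K.d * K.q * (K.h * K.h) := by group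
          _ = _ := by rw [sh, mul_one]
      rw [b1, b2] at h4
      have h5 : K.h = K.q := mul_left_cancel (mul_right_cancel h4)
      exact K.qh_ne H h5.symm

theorem R2 : (K.a * K.b * K.c * K.d * K.e * K.f * K.h) ^ 9 = 1 := by
  have h1 := (K.isE7 H).zeta1 H.cls.1
  exact A.fix_one H (h1 _ (by simp)) (h1 _ (by simp)) (h1 _ (by simp)) (h1 _ (by simp)) (h1 _ (by simp))
    (h1 _ (by simp)) (Or.inl (h1 _ (by simp)))

theorem R3 : (K.b * K.c * K.d * K.e * K.f * K.g * K.h) ^ 9 = 1 := by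
  have h1 := (K.isE7' H).zeta2 H.cls.1
  exact A.fix_one H (h1 _ (by simp)) (h1 _ (by simp)) (h1 _ (by simp)) (h1 _ (by simp)) (h1 _ (by simp))
    (h1 _ (by simp)) (Or.inr (h1 _ (by simp)))

theorem ri : ¬ Commute (K.h * K.d * K.c * K.e * K.b * K.f * (K.d * K.h * K.e * K.c * K.d * K.c * K.e * K.h * K.d) *
    K.f * K.b * K.e * K.c * K.d * K.h) K.i := by
  obtain ⟨α, β, γ, ed, hi, nb, nf⟩ := A.del_code H
  have hα := A.del_off H ed hi nb nf
  obtain ⟨k, ej, ij⟩ := A.j_code H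
  have hd := inv_eq H.cls.1 K.md
  have hh := inv_eq H.cls.1 K.hh
  have hc := inv_eq H.cls.1 K.mc
  have he := inv_eq H.cls.1 K.me
  have hb := inv_eq H.cls.1 K.mb
  have hf := inv_eq H.cls.1 K.mf
  have key : ∀ α β γ k : K4, α ≠ .z → iso ⟨α, β, γ, .z, .z, .z⟩ = true → fm ⟨α, β, γ, .z, .z, .z⟩ B1 ≠ .z →
      fm ⟨α, β, γ, .z, .z, .z⟩ B2 ≠ .z → iso ⟨k, k, .z, .z, .o, .o⟩ = true →
      iso (cj ⟨α, β, γ, .z, .z, .z⟩ B2) = true ∧ iso (cj (cj ⟨α, β, γ, .z, .z, .z⟩ B2) B1) = true ∧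
      iso (cj (cj (cj ⟨α, β, γ, .z, .z, .z⟩ B2) B1) E2) = true ∧
      iso (cj (cj (cj (cj ⟨α, β, γ, .z, .z, .z⟩ B2) B1) E2) E1) = true ∧
      fm (cj (cj (cj (cj ⟨α, β, γ, .z, .z, .z⟩ B2) B1) E2) E1) ⟨k, k, .z, .z, .o, .o⟩ ≠ .z := by decide +kernel
  obtain ⟨j1, j2, j3, j4, j5⟩ := key α β γ k hα hi nb nf ij
  have e1 : K.c * (K.e * (K.b * (K.f * K.del * K.f⁻¹) * K.b⁻¹) * K.e⁻¹) * K.c⁻¹ =
      A.C.P (cj (cj (cj (cj ⟨α, β, γ, .z, .z, .z⟩ B2) B1) E2) E1) := by
    rw [← A.C.conj _ _ j3 iE1, ← A.C.conj _ _ j2 iE2, ← A.C.conj _ _ j1 iB1, ← A.C.conj _ _ hi iB2, ← ed, A.c, A.e,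
      A.b, A.f]
  have e2 : K.h * K.d * K.c * K.e * K.b * K.f * (K.d * K.h * K.e * K.c * K.d * K.c * K.e * K.h * K.d) *
      K.f * K.b * K.e * K.c * K.d * K.h =
      (K.h * K.d) * (K.c * (K.e * (K.b * (K.f * K.del * K.f⁻¹) * K.b⁻¹) * K.e⁻¹) * K.c⁻¹) * (K.h * K.d)⁻¹ := by
    rw [← K.del_def, _root_.mul_inv_rev, hd, hh, hc, he, hb, hf]
    simp only [mul_assoc]
  rw [e2, cc_iff, e1]
  have e3 : (K.h * K.d)⁻¹ * K.i * (K.h * K.d) = K.j := by
    rw [K.j_def, _root_.mul_inv_rev, _root_.mul_inv_rev, hd, hh]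
  rw [e3, ej, A.C.comm _ _ j4 ij]
  exact j5

theorem isA6 : IsA6 D K.c K.d K.e K.h K.f K.b K.i where
  mc := K.mc
  md := K.md
  me := K.me
  mh := K.hh
  mf := K.mf
  mb := K.mb
  mi := K.hi
  cd := K.cd
  de := K.de
  dh := fun h => K.hd H h.symm
  ef := K.ef
  cb := fun h => K.bc h.symm
  hi := K.nhi
  ce := K.ce
  ch := K.h1.symm
  cf := K.cf
  ci := K.ci
  df := K.df
  db := K.bd.symm
  di := K.di
  eh := K.h2.symm
  eb := K.be.symm
  ei := K.ei
  hf := K.hf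
  hb := K.hb
  fb := K.bf.symm
  fi := K.fi
  bi := K.bi
  ri := A.ri H

/-- an element commuting with the diagram of type affine `E₆` is trivial -/
theorem A6_one {w : G} (wc : Commute w K.c) (wd : Commute w K.d) (we : Commute w K.e) (wh : Commute w K.h)
    (wf : Commute w K.f) (wb : Commute w K.b) (wi : Commute w K.i) : w = 1 := by
  obtain ⟨α, β, γ, ed, hi, nb, nf⟩ := A.del_code H
  have hα := A.del_off H ed hi nb nf
  obtain ⟨k, ej, ij⟩ := A.j_code H
  obtain ⟨s, -, s2, s3⟩ := A.good.lin w wh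
  have xc : Commute w (A.C.P E1) := by rw [A.c]; exact wc
  have xe : Commute w (A.C.P E2) := by rw [A.e]; exact we
  have xb : Commute w (A.C.P B1) := by rw [A.b]; exact wb
  have xf : Commute w (A.C.P B2) := by rw [A.f]; exact wf
  have xdel : Commute w (A.C.P ⟨α, β, γ, .z, .z, .z⟩) := by
    rw [← ed, del_def]
    exact (((((((wd.mul_right wh).mul_right we).mul_right wc).mul_right wd).mul_right wc).mul_right we).mul_right
      wh).mul_right wd
  have xj : Commute w (A.C.P ⟨k, k, .z, .z, .o, .o⟩) := by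
    rw [← ej, j_def]
    exact ((wd.mul_right wh).mul_right wi).mul_right (wd.mul_right wh).inv_right
  have t1 := s2 _ _ iE1 iB1 xc xb (by decide)
  have t2 := s2 _ _ hi iB1 xdel xb nb
  have t3 := s2 _ _ hi iB2 xdel xf nf
  have t4 := s2 _ _ iE2 iB2 xe xf (by decide)
  have njc : ∀ k : K4, fm ⟨k, k, .z, .z, .o, .o⟩ E1 ≠ .z := by decide
  have t5 := s2 _ _ ij iE1 xj xc (njc k)
  have h1 : w = 1 ∨ w = K.h := by
    apply s3 [E1, E2, B1, B2, ⟨α, β, γ, .z, .z, .z⟩, ⟨k, k, .z, .z, .o, .o⟩]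
    · intro p hp
      simp only [List.mem_cons, List.not_mem_nil, or_false] at hp
      rcases hp with rfl | rfl | rfl | rfl | rfl | rfl
      · exact ⟨iE1, xc⟩
      · exact ⟨iE2, xe⟩
      · exact ⟨iB1, xb⟩
      · exact ⟨iB2, xf⟩
      · exact ⟨hi, xdel⟩
      · exact ⟨ij, xj⟩
    · have key : ∀ p ∈ [E1, E2, B1, B2, ⟨α, β, γ, .z, .z, .z⟩, ⟨k, k, .z, .z, .o, .o⟩], s p = s B1 := by
        intro p hp
        simp only [List.mem_cons, List.not_mem_nil, or_false] at hp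
        rcases hp with rfl | rfl | rfl | rfl | rfl | rfl
        · exact t1
        · rw [t4, ← t3, t2]
        · rfl
        · rw [← t3, t2]
        · exact t2
        · rw [t5, t1]
      intro p hp q hq
      rw [key p hp, key q hq]
    · simp
    · intro x hx
      have k1 := hx E1 (by simp)
      have k2 := hx E2 (by simp)
      have k3 := hx B1 (by simp)
      have k4 := hx B2 (by simp)
      have k5 := hx ⟨α, β, γ, .z, .z, .z⟩ (by simp)
      have k6 := hx ⟨k, k, .z, .z, .o, .o⟩ (by simp)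
      obtain ⟨a, b, c, x, y, t⟩ := x
      have key1 : ∀ a b c x y t : K4, fm ⟨a, b, c, x, y, t⟩ E1 = .z → fm ⟨a, b, c, x, y, t⟩ E2 = .z →
          fm ⟨a, b, c, x, y, t⟩ B1 = .z → fm ⟨a, b, c, x, y, t⟩ B2 = .z → y = .z ∧ t = .z ∧ c = .z ∧ a = b := by
        decide +kernel
      obtain ⟨rfl, rfl, rfl, rfl⟩ := key1 _ _ _ _ _ _ k1 k2 k3 k4
      have key2 : ∀ α β γ b x : K4, α ≠ .z → fm ⟨b, b, .z, x, .z, .z⟩ ⟨α, β, γ, .z, .z, .z⟩ = .z → x = .z := by
        decide +kernel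
      obtain rfl := key2 _ _ _ _ _ hα k5
      have key3 : ∀ k b : K4, fm ⟨b, b, .z, .z, .z, .z⟩ ⟨k, k, .z, .z, .o, .o⟩ = .z → b = .z := by decide +kernel
      obtain rfl := key3 _ _ k6
      rfl
  rcases h1 with h1 | h1
  · exact h1
  · exfalso; apply K.hd H; rw [← h1]; exact wd

theorem R1 : (K.d * K.c * K.b * K.d * K.e * K.f * K.d * K.h * K.i) ^ 10 = 1 := by
  have hw := (A.isA6 H).omega H.cls.1 H.hconj
  exact A.A6_one H (hw _ (by simp)) (hw _ (by simp)) (hw _ (by simp)) (hw _ (by simp)) (hw _ (by simp))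
    (hw _ (by simp)) (hw _ (by simp))

end CH

end Conf

end Cfsg.Agent.FW
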