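import Cfsg.Agent.FW.Base
import Cfsg.Agent.ThreeTransp.TypeM

/-!
# The polar space of a member of a 3-transposition class of type M(22)
-/

set_option autoImplicit false
set_option linter.unusedSectionVars false

namespace Cfsg.Agent.FW

open Cfsg.Agent.Fi22

open Finset Matrix Module Cfsg.Agent.Uni Cfsg.Agent.ThreeTransp

section PSU

variable {F : Type*} [Field F] [Fintype F] {n : ℕ}

theorem act_fix_of_perp (hF : Fintype.card F = 2 ^ 2) {u x : Fin n → F}
    (hu : hermForm n F 2 u u = 0) (h : hermForm n F 2 x u = 0) : act (tv u) x = x := by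
  rw [tv_act hF hu, h, zero_smul, add_zero]

theorem pr_commute_iff (hF : Fintype.card F = 2 ^ 2) (hn : 2 ≤ n) {u v : Fin n → F} (hu0 : u ≠ 0)
    (hv0 : v ≠ 0) (hu : hermForm n F 2 u u = 0) (hv : hermForm n F 2 v v = 0) :
    Commute (pr (tv u)) (pr (tv v)) ↔ hermForm n F 2 u v = 0 := by
  constructor
  · intro h
    by_contra huv
    have h3 := tv_mul_cube hF hu hv huv
    have h4 : (pr (tv u) * pr (tv v)) ^ 3 = 1 := by
      have : (pr (tv u) * pr (tv v)) ^ 3 = pr ((tv u * tv v) ^ 3) := rfl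
      rw [this, h3]; rfl
    have h5 : pr (tv u) * pr (tv u) = 1 := by
      have : pr (tv u) * pr (tv u) = pr (tv u * tv u) := rfl
      rw [this, tv_mul_self hF hu]; rfl
    have h6 : pr (tv v) * pr (tv v) = 1 := by
      have : pr (tv v) * pr (tv v) = pr (tv v * tv v) := rfl
      rw [this, tv_mul_self hF hv]; rfl
    have h7 : (pr (tv u) * pr (tv v)) ^ 2 = 1 := by
      rw [h.mul_pow, sq, sq, h5, h6, one_mul]
    have h8 : pr (tv u) * pr (tv v) = 1 := by
      have : pr (tv u) * pr (tv v) = (pr (tv u) * pr (tv v)) ^ 3 := by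
        rw [pow_succ, h7, one_mul]
      rw [this, h4]
    have h9 : tv u * tv v ∈ Subgroup.center (SU n F 2) := by
      rw [← pr_eq_one_iff]; exact h8
    have h10 : Commute (tv u) (tv v) := by
      have h11 := (Subgroup.mem_center_iff.1 h9) (tv u)
      rw [← mul_assoc, tv_mul_self hF hu, one_mul] at h11
      have h12 : tv u * (tv v) = tv u * (tv u * tv v * tv u) := by rw [← h11]
      rw [← mul_assoc, ← mul_assoc, tv_mul_self hF hu, one_mul] at h12
      exact h12
    exact huv ((commute_tv_iff hF hu0 hv0 hu hv).1 h10)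
  · intro h
    have := (commute_tv_iff hF hu0 hv0 hu hv).2 h
    exact this.map (QuotientGroup.mk' (Subgroup.center (SU n F 2)))

theorem pr_tv_inj (hF : Fintype.card F = 2 ^ 2) (hn : 2 ≤ n) {u v : Fin n → F} (hu0 : u ≠ 0)
    (hv0 : v ≠ 0) (hu : hermForm n F 2 u u = 0) (hv : hermForm n F 2 v v = 0) :
    pr (tv u) = pr (tv v) ↔ ∃ c : F, c ≠ 0 ∧ v = c • u := by
  rw [← tv_eq_iff hF hu0 hu hv]
  constructor
  · intro h
    have hc : Commute (pr (tv u)) (pr (tv v)) := by rw [h]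
    have huv := (pr_commute_iff hF hn hu0 hv0 hu hv).1 hc
    have h1 : tv u * tv v ∈ Subgroup.center (SU n F 2) := by
      rw [← pr_eq_one_iff]
      have : pr (tv u * tv v) = pr (tv u) * pr (tv v) := rfl
      rw [this, h]
      have : pr (tv v) * pr (tv v) = pr (tv v * tv v) := rfl
      rw [this, tv_mul_self hF hv]; rfl
    have h2 : act (tv u * tv v) u = u := by
      rw [act_mul, act_fix_of_perp hF hv huv, act_fix_of_perp hF hu hu]
    have h3 := eq_one_of_center hF hn h1 hu0 h2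
    rw [← tv_inv hF hv]
    exact eq_inv_of_mul_eq_one_left h3
  · intro h; rw [h]

end PSU

variable {G : Type*} [Group G] {D : Set G}

/-- The polar space of `d`: the members of `D` commuting with `d` are the isotropic points of a six-dimensional
hermitian space. -/
structure Dict (D : Set G) (d : G) (F : Type) [Field F] [Fintype F] where
  ψ : ↥(Subgroup.closure (perp D d)) →* Cfsg.PSU 6 F 2
  vec : G → Fin 6 → F
  hF : Fintype.card F = 2 ^ 2
  surj : Function.Surjective ψ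
  ker : ψ.ker = Subgroup.center _
  ne : ∀ y ∈ perp D d, vec y ≠ 0
  iso : ∀ y ∈ perp D d, hermForm 6 F 2 (vec y) (vec y) = 0
  map : ∀ y (hy : y ∈ perp D d), ψ ⟨y, Subgroup.subset_closure hy⟩ = pr (tv (vec y))
  all : ∀ w : Fin 6 → F, w ≠ 0 → hermForm 6 F 2 w w = 0 → ∃ y ∈ perp D d, ∃ c : F, c ≠ 0 ∧ vec y = c • w
  inj : ∀ y ∈ perp D d, ∀ y' ∈ perp D d, (∃ c : F, c ≠ 0 ∧ vec y' = c • vec y) → y = y'
  comm : ∀ y ∈ perp D d, ∀ y' ∈ perp D d, (Commute y y' ↔ hermForm 6 F 2 (vec y) (vec y') = 0)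

theorem map_center_equiv {K K' : Type*} [Group K] [Group K'] (f : K ≃* K') :
    (Subgroup.center K).map (f : K →* K') = Subgroup.center K' := by
  ext x
  constructor
  · rintro ⟨y, hy, rfl⟩
    rw [Subgroup.mem_center_iff]
    intro z
    have h1 := Subgroup.mem_center_iff.1 hy (f.symm z)
    have h2 := congrArg f h1
    simpa using h2
  · intro hx
    refine ⟨f.symm x, ?_, by simp⟩
    rw [SetLike.mem_coe, Subgroup.mem_center_iff]
    intro z
    have h1 := Subgroup.mem_center_iff.1 hx (f z)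
    have h2 := congrArg f.symm h1
    simpa using h2

section M22

variable [Finite G] (hD : Cfsg.IsThreeTranspositionClass D) (hI : Irred D) (h22 : T22 G D)

include hD h22 in
theorem exists_equiv : ∃ (F : Type) (_ : Field F) (_ : Fintype F), Fintype.card F = 4 ∧ ∀ d ∈ D,
    Nonempty (↥(Subgroup.closure (perp D d)) ⧸ Subgroup.center ↥(Subgroup.closure (perp D d)) ≃*
      Cfsg.PSU 6 F 2) := by
  obtain ⟨-, x, hx, -, -, -, ⟨F, i1, i2, hF, ⟨e⟩⟩, -⟩ := h22
  refine ⟨F, i1, i2, hF, fun d hd => ?_⟩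
  obtain ⟨g, rfl⟩ := exists_conj hD hx hd
  obtain ⟨f⟩ := nonempty_perp_equiv (fun g d hd => conj_mem hD hd g) x g
  have e' : ↥(Subgroup.closure (perp D x)) ⧸ Subgroup.center ↥(Subgroup.closure (perp D x)) ≃*
    Cfsg.PSU 6 F 2 := e
  exact ⟨(QuotientGroup.congr _ _ f (map_center_equiv f)).symm.trans e'⟩

include hD hI h22

omit hI in
theorem perp_nc {d : G} (hd : d ∈ D) : ∃ a ∈ perp D d, ∃ b ∈ perp D d, ¬ Commute a b := by
  by_contra hcon
  push Not at hcon
  obtain ⟨F, _, _, hF, he⟩ := exists_equiv hD h22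
  obtain ⟨e⟩ := he d hd
  have hsub := subsingleton_quot_center (commute_all_of_perp d hcon)
  have : Subsingleton (Cfsg.PSU 6 F 2) := e.toEquiv.symm.subsingleton
  exact (not_nontrivial_iff_subsingleton.2 this) (psu6_simple hF).toNontrivial

omit hI in
theorem exists_nc {d : G} (hd : d ∈ D) : ∃ e ∈ D, ¬ Commute d e := by
  obtain ⟨a, ha, b, hb, hab⟩ := perp_nc hD h22 hd
  obtain ⟨g, hg⟩ := exists_conj hD ha.1 hd
  exact ⟨g * b * g⁻¹, conj_mem hD hb.1 g, by rw [← hg, commute_conj_iff]; exact hab⟩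

theorem exists_dict : ∃ (F : Type) (_ : Field F) (_ : Fintype F), ∀ d ∈ D, Nonempty (Dict D d F) := by
  obtain ⟨F, i1, i2, hF4, he⟩ := exists_equiv hD h22
  have hF : Fintype.card F = 2 ^ 2 := by rw [hF4]; norm_num
  refine ⟨F, i1, i2, fun d hd => ?_⟩
  obtain ⟨e⟩ := he d hd
  obtain ⟨a, ha, b, hb, hab⟩ := perp_nc hD h22 hd
  obtain ⟨c, hc, hdc⟩ := exists_nc hD h22 hd
  have hcls := perp_lift_class hD hI hd ha hc hdc
  have hnc : ∃ a ∈ lift (perp D d), ∃ b ∈ lift (perp D d), ¬ Commute a b := by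
    refine ⟨⟨a, Subgroup.subset_closure ha⟩, ha, ⟨b, Subgroup.subset_closure hb⟩, hb, fun h => hab ?_⟩
    exact congrArg Subtype.val h
  have hq := quot_set hcls hnc
  have hqc := quot_conj (fun g d hd => conj_mem hcls hd g)
  set E : Set (Cfsg.PSU 6 F 2) := e '' (qperp D d) with hE
  have hE1 : Cfsg.IsThreeTranspositionSet E := by
    constructor
    · rintro _ ⟨x, hx, rfl⟩
      rw [MulEquiv.orderOf_eq]
      exact hq.1 x hx
    · rintro _ ⟨x, hx, rfl⟩ _ ⟨y, hy, rfl⟩
      rw [← map_mul, ← map_pow, ← map_pow, map_eq_one_iff e e.injective, map_eq_one_iff e e.injective]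
      exact hq.2 x hx y hy
  have hE2 : ∀ g : Cfsg.PSU 6 F 2, ∀ x ∈ E, g * x * g⁻¹ ∈ E := by
    rintro g _ ⟨x, hx, rfl⟩
    refine ⟨e.symm g * x * (e.symm g)⁻¹, hqc _ _ hx, ?_⟩
    simp
  set ψ : ↥(Subgroup.closure (perp D d)) →* Cfsg.PSU 6 F 2 :=
    e.toMonoidHom.comp (QuotientGroup.mk' _) with hψ
  have hψE : ∀ y (hy : y ∈ perp D d), ψ ⟨y, Subgroup.subset_closure hy⟩ ∈ E := fun y hy =>
    ⟨_, ⟨⟨y, Subgroup.subset_closure hy⟩, hy, rfl⟩, rfl⟩
  have hex : ∀ y (hy : y ∈ perp D d), ∃ u : Fin 6 → F, u ≠ 0 ∧ hermForm 6 F 2 u u = 0 ∧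
      ψ ⟨y, Subgroup.subset_closure hy⟩ = pr (tv u) := fun y hy =>
    exists_tv_of_mem hF hE1 hE2 (hψE y hy)
  classical
  let vec : G → Fin 6 → F := fun y => if hy : y ∈ perp D d then (hex y hy).choose else 0
  have hvec : ∀ y (hy : y ∈ perp D d), vec y ≠ 0 ∧ hermForm 6 F 2 (vec y) (vec y) = 0 ∧
      ψ ⟨y, Subgroup.subset_closure hy⟩ = pr (tv (vec y)) := by
    intro y hy
    simp only [vec, dif_pos hy]
    exact (hex y hy).choose_spec
  have hinj : ∀ y (hy : y ∈ perp D d) y' (hy' : y' ∈ perp D d),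
      ψ ⟨y, Subgroup.subset_closure hy⟩ = ψ ⟨y', Subgroup.subset_closure hy'⟩ → y = y' := by
    intro y hy y' hy' h
    have h1 := e.injective h
    exact congrArg Subtype.val (mk_inj_perp hD hI hd hc hdc (u := ⟨y, Subgroup.subset_closure hy⟩)
      (v := ⟨y', Subgroup.subset_closure hy'⟩) hy hy' h1)
  refine ⟨⟨ψ, vec, hF, ?_, ?_, fun y hy => (hvec y hy).1, fun y hy => (hvec y hy).2.1,
    fun y hy => (hvec y hy).2.2, ?_, ?_, ?_⟩⟩
  · exact e.surjective.comp (QuotientGroup.mk'_surjective _)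
  · rw [hψ, ← MonoidHom.comap_ker]
    have : e.toMonoidHom.ker = ⊥ := by
      rw [MonoidHom.ker_eq_bot_iff]; exact e.injective
    rw [this, MonoidHom.comap_bot, QuotientGroup.ker_mk']
  · intro w hw0 hw
    have hne : E.Nonempty := ⟨_, hψE a ha⟩
    obtain ⟨x, ⟨y, hy, rfl⟩, hx⟩ := tv_mem hF hE1 hE2 hne hw0 hw
    have hy' : (y : G) ∈ perp D d := hy
    refine ⟨y, hy', ?_⟩
    have h1 := (hvec y hy').2.2
    have h2 : ψ ⟨(y : G), Subgroup.subset_closure hy'⟩ = pr (tv w) := hx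
    rw [h2] at h1
    exact (pr_tv_inj hF (by norm_num) hw0 (hvec y hy').1 hw (hvec y hy').2.1).1 h1
  · intro y hy y' hy' h
    apply hinj y hy y' hy'
    rw [(hvec y hy).2.2, (hvec y' hy').2.2]
    exact (pr_tv_inj hF (by norm_num) (hvec y hy).1 (hvec y' hy').1 (hvec y hy).2.1 (hvec y' hy').2.1).2 h
  · intro y hy y' hy'
    rw [← pr_commute_iff hF (by norm_num) (hvec y hy).1 (hvec y' hy').1 (hvec y hy).2.1 (hvec y' hy').2.1,
      ← (hvec y hy).2.2, ← (hvec y' hy').2.2]
    have h1 := quot_commute_iff hcls.1 (u := ⟨y, Subgroup.subset_closure hy⟩)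
      (v := ⟨y', Subgroup.subset_closure hy'⟩) hy hy'
    constructor
    · intro h
      have h2 : Commute (⟨y, Subgroup.subset_closure hy⟩ : ↥(Subgroup.closure (perp D d)))
        ⟨y', Subgroup.subset_closure hy'⟩ := Subtype.ext h
      exact h2.map ψ
    · intro h
      have h2 : Commute ((⟨y, Subgroup.subset_closure hy⟩ : ↥(Subgroup.closure (perp D d))) :
          ↥(Subgroup.closure (perp D d)) ⧸ Subgroup.center ↥(Subgroup.closure (perp D d)))
          ((⟨y', Subgroup.subset_closure hy'⟩ : ↥(Subgroup.closure (perp D d))) :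
          ↥(Subgroup.closure (perp D d)) ⧸ Subgroup.center ↥(Subgroup.closure (perp D d))) := by
        have h3 := h.map e.symm
        simpa [ψ] using h3
      exact congrArg Subtype.val (h1.1 h2)

end M22

end Cfsg.Agent.FW
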