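import Cfsg.Agent.FW.Low5
import Cfsg.Agent.Fi22.Trans

/-!
# Hexads avoiding a point, and the joint centraliser of two commuting members for type M(23)
-/

set_option autoImplicit false
set_option linter.unusedSectionVars false

namespace Cfsg.Agent.FW

open Cfsg.Agent.Fi22

open Finset Matrix Module Cfsg.Agent.Uni Cfsg.Agent.ThreeTransp

variable {G : Type*} [Group G] {D : Set G} [Finite G]

theorem H22.exists_hexad_off (h : H22 D) {x : G} (hx : x ∈ D) : ∃ l, IsFact D 6 1 l ∧ ∀ y ∈ l, y ∈ perp D x := by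
  obtain ⟨a, ha⟩ := h.perp_nonempty hx
  have hxa : x ∈ perp D a := ⟨hx, ha.2.1.symm, ha.2.2.symm⟩
  obtain ⟨F, i1, i2, ⟨Δ⟩⟩ := h.dict ha.1
  have hF := Δ.hF
  obtain ⟨ω, hω⟩ := exists_omega hF
  have hω0 := omega_ne_zero hω
  have hω1 := omega_ne_one hF hω
  have hω2 : ω ^ 2 ≠ 0 := pow_ne_zero _ hω0
  have hω3 : ω ^ 2 ≠ 1 := by
    intro h1; rw [h1] at hω
    exact hω0 (by linear_combination -hω)
  have hω4 : ω ≠ ω ^ 2 := by
    intro h1
    rcases sq_eq_self_iff'.1 h1.symm with h2 | h2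
    · exact hω0 h2
    · exact hω1 h2
  obtain ⟨U, V, hUV, hU0⟩ := exists_HB_of_TI hF (k := 1) (by norm_num) (u := ![Δ.vec x]) (by
    constructor
    · exact LinearIndependent.of_subsingleton 0 (by simpa using Δ.ne x hxa)
    · intro i j
      have hi : i = 0 := Subsingleton.elim _ _
      have hj : j = 0 := Subsingleton.elim _ _
      rw [hi, hj]; exact Δ.iso x hxa)
  have hU0' : U 0 = Δ.vec x := hU0 0
  set w := U 0
  set u := U 1
  set v := U 2
  have hli : LI3 w u v := by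
    intro x y z h0
    have h1 := Fintype.linearIndependent_iff.1 hUV.li ![x, y, z] (by
      rw [Fin.sum_univ_three]; simpa using h0)
    exact ⟨h1 0, h1 1, h1 2⟩
  have hu : hermForm 6 F 2 u u = 0 := hUV.uu _ _
  have hv : hermForm 6 F 2 v v = 0 := hUV.uu _ _
  have hw : hermForm 6 F 2 w w = 0 := hUV.uu _ _
  have huv : hermForm 6 F 2 u v = 0 := hUV.uu _ _
  have hwu : hermForm 6 F 2 w u = 0 := hUV.uu _ _
  have hwv : hermForm 6 F 2 w v = 0 := hUV.uu _ _
  have hwx : Δ.pt w = x := by rw [hU0']; exact Δ.pt_vec_self hxa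
  have hw0 : w ≠ 0 := hli.ne (x := 1) (y := 0) (z := 0) (by simp) (by simp)
  have hL : ∀ z ∈ [u, v, u + v, u + ω • v, u + ω ^ 2 • v], ∃ α β : F, ¬ (α = 0 ∧ β = 0) ∧
      z = (0 : F) • w + α • u + β • v := by
    simp only [List.mem_cons, List.not_mem_nil, or_false, forall_eq_or_imp, forall_eq]
    refine ⟨⟨1, 0, by simp, by simp⟩, ⟨0, 1, by simp, by simp⟩, ⟨1, 1, by simp, by simp⟩,
      ⟨1, ω, by simp, by simp⟩, ⟨1, ω ^ 2, by simp, by simp⟩⟩
  have hl0 : ∀ z ∈ [u, v, u + v, u + ω • v, u + ω ^ 2 • v], z ≠ 0 ∧ hermForm 6 F 2 z z = 0 := by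
    intro z hz
    obtain ⟨α, β, h1, h2⟩ := hL z hz
    exact ⟨hli.ne (by tauto) h2, herm_comb hF hw hu hv hwu hwv huv h2 h2⟩
  have hl : ∀ z ∈ [u, v, u + v, u + ω • v, u + ω ^ 2 • v], ∀ z' ∈ [u, v, u + v, u + ω • v, u + ω ^ 2 • v],
      hermForm 6 F 2 z z' = 0 := by
    intro z hz z' hz'
    obtain ⟨α, β, h1, h2⟩ := hL z hz
    obtain ⟨α', β', h1', h2'⟩ := hL z' hz'
    exact herm_comb hF hw hu hv hwu hwv huv h2 h2'
  have hcen := (Δ.central_iff hl0 hl).2 (rk_line hF hω u v)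
  have hnp : NP u v := hli.np (x := 0) (y := 1) (z := 0) (x' := 0) (y' := 0) (z' := 1) (by simp) (by simp) (by simp)
  have hu0 : u ≠ 0 := (hl0 u (by simp)).1
  have hndv : ∀ z ∈ [u, v, u + v, u + ω • v, u + ω ^ 2 • v], ∀ z' ∈ [u, v, u + v, u + ω • v, u + ω ^ 2 • v],
      NP z z' → Δ.pt z ≠ Δ.pt z' := fun z hz z' hz' hn =>
    (Δ.pt_ne_iff (hl0 z hz).1 (hl0 z hz).2 (hl0 z' hz').1 (hl0 z' hz').2).2 hn
  have hone : u + v = u + (1 : F) • v := by rw [one_smul]
  have hnd : ([u, v, u + v, u + ω • v, u + ω ^ 2 • v].map Δ.pt).Nodup := by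
    simp only [List.map_cons, List.map_nil, List.nodup_cons, List.mem_cons, List.not_mem_nil, or_false, not_or,
      List.nodup_nil, and_true, not_false_eq_true]
    refine ⟨⟨?_, ?_, ?_, ?_⟩, ⟨?_, ?_, ?_⟩, ⟨?_, ?_⟩, ?_⟩
    · exact hndv _ (by simp) _ (by simp) hnp
    · refine hndv _ (by simp) _ (by simp) ?_
      rw [hone]; exact np_line_u hu0 hnp one_ne_zero
    · exact hndv _ (by simp) _ (by simp) (np_line_u hu0 hnp hω0)
    · exact hndv _ (by simp) _ (by simp) (np_line_u hu0 hnp hω2)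
    · refine hndv _ (by simp) _ (by simp) ?_
      rw [hone]; exact np_line_v hu0 hnp _
    · exact hndv _ (by simp) _ (by simp) (np_line_v hu0 hnp _)
    · exact hndv _ (by simp) _ (by simp) (np_line_v hu0 hnp _)
    · refine hndv _ (by simp) _ (by simp) ?_
      rw [hone]; exact np_line hu0 hnp hω1.symm
    · refine hndv _ (by simp) _ (by simp) ?_
      rw [hone]; exact np_line hu0 hnp hω3.symm
    · exact hndv _ (by simp) _ (by simp) (np_line hu0 hnp hω4)
  set L := [u, v, u + v, u + ω • v, u + ω ^ 2 • v] with hLdef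
  have hmem : ∀ y ∈ L.map Δ.pt, y ∈ perp D a ∧ y ∈ perp D x := by
    intro y hy
    obtain ⟨z, hz, rfl⟩ := List.mem_map.1 hy
    have hm := Δ.pt_mem (hl0 z hz).1 (hl0 z hz).2
    obtain ⟨α, β, h1, h2⟩ := hL z hz
    refine ⟨hm, hm.1, ?_, ?_⟩
    · rw [← hwx]
      apply (Δ.pt_ne_iff (hl0 z hz).1 (hl0 z hz).2 hw0 hw).2
      refine hli.np (x := 0) (y := α) (z := β) (x' := 1) (y' := 0) (z' := 0) ?_ h2 (by simp)
      intro c h3
      simp at h3
    · rw [← hwx]
      apply (Δ.commute_pt hw0 hw (hl0 z hz).1 (hl0 z hz).2).2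
      exact herm_comb hF hw hu hv hwu hwv huv (x := 1) (y := 0) (z := 0) (by simp) h2
  have hcomm : ∀ y ∈ L.map Δ.pt, ∀ y' ∈ L.map Δ.pt, Commute y y' := by
    intro y hy y' hy'
    obtain ⟨z, hz, rfl⟩ := List.mem_map.1 hy
    obtain ⟨z', hz', rfl⟩ := List.mem_map.1 hy'
    exact (Δ.commute_pt (hl0 z hz).1 (hl0 z hz).2 (hl0 z' hz').1 (hl0 z' hz').2).2 (hl z hz z' hz')
  have haa := mul_self h.cls.1 ha.1
  have hprod : (L.map Δ.pt).prod = a := by
    rcases h.centralizer_perp ha.1 hcen with h1 | h1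
    · exfalso
      exact h.norel_five ⟨_, hnd, by simp [hLdef], fun y hy => (hmem y hy).1.1, hcomm, h1⟩
    · exact h1
  refine ⟨a :: L.map Δ.pt, ⟨?_, by simp [hLdef], ?_, ?_, ?_⟩, ?_⟩
  · rw [List.nodup_cons]
    exact ⟨fun h1 => (hmem a h1).1.2.1 rfl, hnd⟩
  · intro y hy
    rcases List.mem_cons.1 hy with rfl | hy
    · exact ha.1
    · exact (hmem y hy).1.1
  · intro y hy y' hy'
    rcases List.mem_cons.1 hy with h1 | h1 <;> rcases List.mem_cons.1 hy' with h2 | h2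
    · rw [h1, h2]
    · rw [h1]; exact (hmem _ h2).1.2.2
    · rw [h2]; exact (hmem _ h1).1.2.2.symm
    · exact hcomm _ h1 _ h2
  · rw [List.prod_cons, hprod, haa]
  · intro y hy
    rcases List.mem_cons.1 hy with rfl | hy
    · exact ha
    · exact (hmem y hy).2

end Cfsg.Agent.FW
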