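import Cfsg.Agent.FW.Fact22

/-!
# The group generated by the members of a class of type M(22) commuting with one of them is quasisimple
-/

set_option autoImplicit false
set_option linter.unusedSectionVars false

namespace Cfsg.Agent.FW

open Cfsg.Agent.Fi22

open Finset Matrix Module Cfsg.Agent.Uni Cfsg.Agent.ThreeTransp

section vec

variable {F : Type*} [Field F] [Fintype F] {n : ℕ}

/-- The six points of a hyperoval of a totally isotropic plane. -/
theorem rk_hyperoval (hF : Fintype.card F = 2 ^ 2) {ω : F} (hω : ω ^ 2 = ω + 1) {β : F} (hβ : β ≠ 0)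
    (u v w x : Fin n → F) :
    rk [u, v, w, u + v + β • w, u + ω • v + (β * ω ^ 2) • w, u + ω ^ 2 • v + (β * ω) • w] x = 0 := by
  have h2 := two_eq_zero' hF
  have h3 : ω ^ 3 = 1 := pow_three_eq_one hF (omega_ne_zero hω)
  have hb3 : β ^ 3 = 1 := pow_three_eq_one hF hβ
  simp only [rk_cons, rk_nil, hermForm_add_right hF, hermForm_smul_right]
  set a := hermForm n F 2 x u
  set b := hermForm n F 2 x v
  set c := hermForm n F 2 x w
  have e : a • u + (b • v + (c • w + ((a + b + β ^ 2 * c) • (u + v + β • w) +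
      ((a + ω ^ 2 * b + (β * ω ^ 2) ^ 2 * c) • (u + ω • v + (β * ω ^ 2) • w) +
      ((a + (ω ^ 2) ^ 2 * b + (β * ω) ^ 2 * c) • (u + ω ^ 2 • v + (β * ω) • w) + 0))))) =
      (a + (a + b + β ^ 2 * c) + (a + ω ^ 2 * b + (β * ω ^ 2) ^ 2 * c) + (a + (ω ^ 2) ^ 2 * b + (β * ω) ^ 2 * c)) • u +
      (b + (a + b + β ^ 2 * c) + (a + ω ^ 2 * b + (β * ω ^ 2) ^ 2 * c) * ω +
        (a + (ω ^ 2) ^ 2 * b + (β * ω) ^ 2 * c) * ω ^ 2) • v +
      (c + (a + b + β ^ 2 * c) * β + (a + ω ^ 2 * b + (β * ω ^ 2) ^ 2 * c) * (β * ω ^ 2) +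
        (a + (ω ^ 2) ^ 2 * b + (β * ω) ^ 2 * c) * (β * ω)) • w := by
    module
  rw [e]
  have h4 : (ω ^ 2) ^ 2 = ω := by linear_combination ω * h3
  have h5 : (1 : F) + ω + ω ^ 2 = 0 := by rw [hω]; linear_combination (ω + 1) * h2
  have c1 : a + (a + b + β ^ 2 * c) + (a + ω ^ 2 * b + (β * ω ^ 2) ^ 2 * c) +
      (a + (ω ^ 2) ^ 2 * b + (β * ω) ^ 2 * c) = 0 := by
    rw [mul_pow, mul_pow, h4]
    linear_combination (2 * a) * h2 + (b + β ^ 2 * c) * h5
  have c2 : b + (a + b + β ^ 2 * c) + (a + ω ^ 2 * b + (β * ω ^ 2) ^ 2 * c) * ω +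
        (a + (ω ^ 2) ^ 2 * b + (β * ω) ^ 2 * c) * ω ^ 2 = 0 := by
    rw [mul_pow, mul_pow, h4]
    linear_combination (2 * b) * h2 + (2 * b) * h3 + a * h5 + (β ^ 2 * c) * h5 + (β ^ 2 * c * ω) * h3
  have c3 : c + (a + b + β ^ 2 * c) * β + (a + ω ^ 2 * b + (β * ω ^ 2) ^ 2 * c) * (β * ω ^ 2) +
        (a + (ω ^ 2) ^ 2 * b + (β * ω) ^ 2 * c) * (β * ω) = 0 := by
    rw [mul_pow, mul_pow, h4]
    linear_combination (2 * c) * h2 + (3 * c) * hb3 + (a * β) * h5 + (b * β) * h5 + (b * β * ω) * h3 +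
      (2 * β ^ 3 * c) * h3
  rw [c1, c2, c3, zero_smul, zero_smul, zero_smul, add_zero, add_zero]

/-- three linearly independent vectors -/
def LI3 (u v w : Fin n → F) : Prop := ∀ x y z : F, x • u + y • v + z • w = 0 → x = 0 ∧ y = 0 ∧ z = 0

theorem LI3.np {u v w : Fin n → F} (h : LI3 u v w) {x y z x' y' z' : F}
    (h' : ∀ c : F, x' = c * x → y' = c * y → z' = c * z → False) {p q : Fin n → F}
    (hp : p = x • u + y • v + z • w) (hq : q = x' • u + y' • v + z' • w) : NP p q := by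
  intro c hc
  have h1 : (x' - c * x) • u + (y' - c * y) • v + (z' - c * z) • w = 0 := by
    rw [hp, hq] at hc
    rw [smul_add, smul_add, smul_smul, smul_smul, smul_smul] at hc
    rw [sub_smul, sub_smul, sub_smul]
    have : x' • u - (c * x) • u + (y' • v - (c * y) • v) + (z' • w - (c * z) • w) =
      (x' • u + y' • v + z' • w) - ((c * x) • u + (c * y) • v + (c * z) • w) := by abel
    rw [this, hc, sub_self]
  obtain ⟨h2, h3, h4⟩ := h _ _ _ h1
  exact h' c (sub_eq_zero.1 h2) (sub_eq_zero.1 h3) (sub_eq_zero.1 h4)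

theorem LI3.ne {u v w : Fin n → F} (h : LI3 u v w) {x y z : F} (h' : ¬ (x = 0 ∧ y = 0 ∧ z = 0)) {p : Fin n → F}
    (hp : p = x • u + y • v + z • w) : p ≠ 0 := by
  intro h0
  rw [hp] at h0
  exact h' (h _ _ _ h0)

theorem LI3.smul {u v w : Fin n → F} (h : LI3 u v w) {α : F} (hα : α ≠ 0) : LI3 u (α • v) w := by
  intro x y z h0
  rw [smul_smul] at h0
  obtain ⟨h1, h2, h3⟩ := h _ _ _ h0
  exact ⟨h1, (mul_eq_zero.1 h2).resolve_right hα, h3⟩

theorem herm_comb (hF : Fintype.card F = 2 ^ 2) {u v w : Fin n → F}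
    (hu : hermForm n F 2 u u = 0) (hv : hermForm n F 2 v v = 0) (hw : hermForm n F 2 w w = 0)
    (huv : hermForm n F 2 u v = 0) (huw : hermForm n F 2 u w = 0) (hvw : hermForm n F 2 v w = 0)
    {x y z x' y' z' : F} {p q : Fin n → F}
    (hp : p = x • u + y • v + z • w) (hq : q = x' • u + y' • v + z' • w) : hermForm n F 2 p q = 0 := by
  have hvu : hermForm n F 2 v u = 0 := (hermForm_eq_zero_comm hF).1 huv
  have hwu : hermForm n F 2 w u = 0 := (hermForm_eq_zero_comm hF).1 huw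
  have hwv : hermForm n F 2 w v = 0 := (hermForm_eq_zero_comm hF).1 hvw
  rw [hp, hq]
  simp only [hermForm_add_left, hermForm_add_right hF, hermForm_smul_left, hermForm_smul_right, hu, hv, hw,
    huv, huw, hvw, hvu, hwu, hwv, mul_zero, add_zero]

end vec

theorem mul_conj_mem {K : Type*} [Group K] {y g : K} (hy : y⁻¹ = y) : y * (g * y * g⁻¹) ∈ commutator K := by
  have h1 : y * (g * y * g⁻¹) = y * g * y⁻¹ * g⁻¹ := by rw [hy]; simp only [mul_assoc]
  rw [h1, commutator_def]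
  exact Subgroup.commutator_mem_commutator (Subgroup.mem_top _) (Subgroup.mem_top _)

variable {G : Type*} [Group G] {D : Set G}

namespace H22

variable [Finite G] (h : H22 D)

include h

/-- If the products of six commuting members of `perp D d` are never `d` then hyperovals give hexads. -/
theorem hyperoval {d : G} (hd : d ∈ D) {F : Type} [Field F] [Fintype F] (Δ : Dict D d F)
    (hev : ∀ p1 p2 p3 p4 p5 p6 : G, p1 ∈ perp D d → p2 ∈ perp D d → p3 ∈ perp D d → p4 ∈ perp D d →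
      p5 ∈ perp D d → p6 ∈ perp D d → p1 * (p2 * (p3 * (p4 * (p5 * p6)))) ≠ d)
    {u v w : Fin 6 → F} (hli : LI3 u v w)
    (hu : hermForm 6 F 2 u u = 0) (hv : hermForm 6 F 2 v v = 0) (hw : hermForm 6 F 2 w w = 0)
    (huv : hermForm 6 F 2 u v = 0) (huw : hermForm 6 F 2 u w = 0) (hvw : hermForm 6 F 2 v w = 0)
    {ω : F} (hω : ω ^ 2 = ω + 1) {β : F} (hβ : β ≠ 0) :
    IsHexad D [Δ.pt u, Δ.pt v, Δ.pt w, Δ.pt (u + v + β • w), Δ.pt (u + ω • v + (β * ω ^ 2) • w),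
      Δ.pt (u + ω ^ 2 • v + (β * ω) • w)] := by
  have hF := Δ.hF
  have hω0 := omega_ne_zero hω
  have hω1 := omega_ne_one hF hω
  have hω2 : ω ^ 2 ≠ 0 := pow_ne_zero _ hω0
  have hω3 : ω ^ 2 ≠ 1 := by
    intro h1; rw [h1] at hω
    exact hω0 (by linear_combination -hω)
  have hω4 : ω ≠ ω ^ 2 := by
    intro h1
    rcases sq_eq_self_iff'.1 h1.symm with h2 | h2
    · exact hω0 h2
    · exact hω1 h2
  set p4 := u + v + β • w with hp4
  set p5 := u + ω • v + (β * ω ^ 2) • w with hp5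
  set p6 := u + ω ^ 2 • v + (β * ω) • w with hp6
  have e1 : u = (1 : F) • u + (0 : F) • v + (0 : F) • w := by simp
  have e2 : v = (0 : F) • u + (1 : F) • v + (0 : F) • w := by simp
  have e3 : w = (0 : F) • u + (0 : F) • v + (1 : F) • w := by simp
  have e4 : p4 = (1 : F) • u + (1 : F) • v + β • w := by simp [hp4]
  have e5 : p5 = (1 : F) • u + ω • v + (β * ω ^ 2) • w := by simp [hp5]
  have e6 : p6 = (1 : F) • u + ω ^ 2 • v + (β * ω) • w := by simp [hp6]
  have n1 : u ≠ 0 := hli.ne (by simp) e1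
  have n2 : v ≠ 0 := hli.ne (by simp) e2
  have n3 : w ≠ 0 := hli.ne (by simp) e3
  have n4 : p4 ≠ 0 := hli.ne (by simp) e4
  have n5 : p5 ≠ 0 := hli.ne (by simp) e5
  have n6 : p6 ≠ 0 := hli.ne (by simp) e6
  have hc : ∀ {x y z x' y' z' : F} {p q : Fin 6 → F}, p = x • u + y • v + z • w → q = x' • u + y' • v + z' • w →
    hermForm 6 F 2 p q = 0 := fun hp hq => herm_comb hF hu hv hw huv huw hvw hp hq
  have s4 := hc e4 e4
  have s5 := hc e5 e5
  have s6 := hc e6 e6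
  have hl0 : ∀ z ∈ [u, v, w, p4, p5, p6], z ≠ 0 ∧ hermForm 6 F 2 z z = 0 := by
    simp only [List.mem_cons, List.not_mem_nil, or_false, forall_eq_or_imp, forall_eq]
    exact ⟨⟨n1, hu⟩, ⟨n2, hv⟩, ⟨n3, hw⟩, ⟨n4, s4⟩, ⟨n5, s5⟩, ⟨n6, s6⟩⟩
  have hl1 : ∀ z ∈ [u, v, w, p4, p5, p6], ∃ x y z' : F, z = x • u + y • v + z' • w := by
    simp only [List.mem_cons, List.not_mem_nil, or_false, forall_eq_or_imp, forall_eq]
    exact ⟨⟨_, _, _, e1⟩, ⟨_, _, _, e2⟩, ⟨_, _, _, e3⟩, ⟨_, _, _, e4⟩, ⟨_, _, _, e5⟩, ⟨_, _, _, e6⟩⟩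
  have hl : ∀ z ∈ [u, v, w, p4, p5, p6], ∀ z' ∈ [u, v, w, p4, p5, p6], hermForm 6 F 2 z z' = 0 := by
    intro z hz z' hz'
    obtain ⟨x, y, t, h1⟩ := hl1 z hz
    obtain ⟨x', y', t', h1'⟩ := hl1 z' hz'
    exact hc h1 h1'
  have hcen := (Δ.central_iff hl0 hl).2 (rk_hyperoval hF hω hβ u v w)
  have hprod : ([u, v, w, p4, p5, p6].map Δ.pt).prod = 1 := by
    rcases h.centralizer_perp hd hcen with h1 | h1
    · exact h1
    · exfalso
      refine hev _ _ _ _ _ _ (Δ.pt_mem n1 hu) (Δ.pt_mem n2 hv) (Δ.pt_mem n3 hw) (Δ.pt_mem n4 s4) (Δ.pt_mem n5 s5)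
        (Δ.pt_mem n6 s6) ?_
      simpa only [List.map_cons, List.map_nil, List.prod_cons, List.prod_nil, mul_one] using h1
  refine ⟨?_, rfl, ?_, ?_, hprod⟩
  · have D12 := (Δ.pt_ne_iff n1 hu n2 hv).2 (hli.np (by simp) e1 e2)
    have D13 := (Δ.pt_ne_iff n1 hu n3 hw).2 (hli.np (by simp) e1 e3)
    have D14 := (Δ.pt_ne_iff n1 hu n4 s4).2 (hli.np (by simp) e1 e4)
    have D15 := (Δ.pt_ne_iff n1 hu n5 s5).2 (hli.np (by simp [hω0]) e1 e5)
    have D16 := (Δ.pt_ne_iff n1 hu n6 s6).2 (hli.np (by simp [hω0]) e1 e6)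
    have D23 := (Δ.pt_ne_iff n2 hv n3 hw).2 (hli.np (by simp) e2 e3)
    have D24 := (Δ.pt_ne_iff n2 hv n4 s4).2 (hli.np (by simp) e2 e4)
    have D25 := (Δ.pt_ne_iff n2 hv n5 s5).2 (hli.np (by simp) e2 e5)
    have D26 := (Δ.pt_ne_iff n2 hv n6 s6).2 (hli.np (by simp) e2 e6)
    have D34 := (Δ.pt_ne_iff n3 hw n4 s4).2 (hli.np (by simp) e3 e4)
    have D35 := (Δ.pt_ne_iff n3 hw n5 s5).2 (hli.np (by simp) e3 e5)
    have D36 := (Δ.pt_ne_iff n3 hw n6 s6).2 (hli.np (by simp) e3 e6)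
    have D45 := (Δ.pt_ne_iff n4 s4 n5 s5).2 (hli.np (by
      intro c h1 h2 _
      rw [mul_one] at h1 h2
      exact hω1 (h2.trans h1.symm)) e4 e5)
    have D46 := (Δ.pt_ne_iff n4 s4 n6 s6).2 (hli.np (by
      intro c h1 h2 _
      rw [mul_one] at h1 h2
      exact hω3 (h2.trans h1.symm)) e4 e6)
    have D56 := (Δ.pt_ne_iff n5 s5 n6 s6).2 (hli.np (by
      intro c h1 h2 _
      rw [mul_one] at h1
      rw [← h1, one_mul] at h2
      exact hω4 h2.symm) e5 e6)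
    simp only [List.nodup_cons, List.mem_cons, List.not_mem_nil, or_false, not_or, List.nodup_nil, and_true,
      not_false_eq_true]
    exact ⟨⟨D12, D13, D14, D15, D16⟩, ⟨D23, D24, D25, D26⟩, ⟨D34, D35, D36⟩, ⟨D45, D46⟩, D56⟩
  · intro a ha
    have ha' : a ∈ [u, v, w, p4, p5, p6].map Δ.pt := ha
    obtain ⟨z, hz, rfl⟩ := List.mem_map.1 ha'
    exact (Δ.pt_mem (hl0 z hz).1 (hl0 z hz).2).1
  · intro a ha b hb
    have ha' : a ∈ [u, v, w, p4, p5, p6].map Δ.pt := ha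
    have hb' : b ∈ [u, v, w, p4, p5, p6].map Δ.pt := hb
    obtain ⟨z, hz, rfl⟩ := List.mem_map.1 ha'
    obtain ⟨z', hz', rfl⟩ := List.mem_map.1 hb'
    exact (Δ.commute_pt (hl0 z hz).1 (hl0 z hz).2 (hl0 z' hz').1 (hl0 z' hz').2).2 (hl z hz z' hz')

/-- Some product of six members of `perp D d` is `d`. -/
theorem exists_six {d : G} (hd : d ∈ D) : ∃ p1 p2 p3 p4 p5 p6 : G, p1 ∈ perp D d ∧ p2 ∈ perp D d ∧ p3 ∈ perp D d ∧
    p4 ∈ perp D d ∧ p5 ∈ perp D d ∧ p6 ∈ perp D d ∧ p1 * (p2 * (p3 * (p4 * (p5 * p6)))) = d := by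
  by_contra hcon
  push Not at hcon
  obtain ⟨F, i1, i2, ⟨Δ⟩⟩ := h.dict hd
  have hF := Δ.hF
  obtain ⟨ω, hω⟩ := exists_omega hF
  have hω0 := omega_ne_zero hω
  have hω1 := omega_ne_one hF hω
  have hω2 : ω ^ 2 ≠ 0 := pow_ne_zero _ hω0
  have hω3 : ω ^ 2 ≠ 1 := by
    intro h1; rw [h1] at hω
    exact hω0 (by linear_combination -hω)
  have hω4 : ω ≠ ω ^ 2 := by
    intro h1
    rcases sq_eq_self_iff'.1 h1.symm with h2 | h2
    · exact hω0 h2
    · exact hω1 h2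
  obtain ⟨U, V, hUV⟩ := exists_HB hF
  set u := U 0
  set v := U 1
  set w := U 2
  have hli : LI3 u v w := by
    intro x y z h0
    have h1 := Fintype.linearIndependent_iff.1 hUV.li ![x, y, z] (by
      rw [Fin.sum_univ_three]; simpa using h0)
    exact ⟨h1 0, h1 1, h1 2⟩
  have hu : hermForm 6 F 2 u u = 0 := hUV.uu _ _
  have hv : hermForm 6 F 2 v v = 0 := hUV.uu _ _
  have hw : hermForm 6 F 2 w w = 0 := hUV.uu _ _
  have huv : hermForm 6 F 2 u v = 0 := hUV.uu _ _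
  have huw : hermForm 6 F 2 u w = 0 := hUV.uu _ _
  have hvw : hermForm 6 F 2 v w = 0 := hUV.uu _ _
  have e1 : u = (1 : F) • u + (0 : F) • v + (0 : F) • w := by simp
  have e2 : v = (0 : F) • u + (1 : F) • v + (0 : F) • w := by simp
  have e3 : w = (0 : F) • u + (0 : F) • v + (1 : F) • w := by simp
  have n1 : u ≠ 0 := hli.ne (by simp) e1
  have n2 : v ≠ 0 := hli.ne (by simp) e2
  have n3 : w ≠ 0 := hli.ne (by simp) e3
  have m1 := Δ.pt_mem n1 hu
  have m2 := Δ.pt_mem n2 hv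
  have m3 := Δ.pt_mem n3 hw
  have D12 := (Δ.pt_ne_iff n1 hu n2 hv).2 (hli.np (by simp) e1 e2)
  have D13 := (Δ.pt_ne_iff n1 hu n3 hw).2 (hli.np (by simp) e1 e3)
  have D23 := (Δ.pt_ne_iff n2 hv n3 hw).2 (hli.np (by simp) e2 e3)
  obtain ⟨y3, y4, y5, hhex, huniq⟩ := h.exists_hexad m1.1 (b := Δ.pt v) (c := Δ.pt w)
    ⟨m2.1, D12.symm, (Δ.commute_pt n1 hu n2 hv).2 huv⟩ ⟨m3.1, D13.symm, (Δ.commute_pt n1 hu n3 hw).2 huw⟩
    D23 ((Δ.commute_pt n2 hv n3 hw).2 hvw)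
  have key : ∀ α β : F, α ≠ 0 → β ≠ 0 → Δ.pt (u + α • v + β • w) = y3 ∨ Δ.pt (u + α • v + β • w) = y4 ∨
      Δ.pt (u + α • v + β • w) = y5 := by
    intro α β hα hβ
    have hv' := herm_smul_self hv α
    have huv' : hermForm 6 F 2 u (α • v) = 0 := by rw [hermForm_smul_right, huv, mul_zero]
    have hvw' : hermForm 6 F 2 (α • v) w = 0 := by rw [hermForm_smul_left, hvw, mul_zero]
    have h1 := h.hyperoval hd Δ (fun p1 p2 p3 p4 p5 p6 k1 k2 k3 k4 k5 k6 => hcon p1 p2 p3 p4 p5 p6 k1 k2 k3 k4 k5 k6)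
      (hli.smul hα) hu hv' hw huv' huw hvw' hω hβ
    rw [Δ.pt_smul n2 hv hα] at h1
    exact huniq _ _ _ h1
  have hne : ∀ α β α' β' : F, α ≠ 0 → β ≠ 0 → α' ≠ 0 → β' ≠ 0 → ¬ (α = α' ∧ β = β') →
      Δ.pt (u + α • v + β • w) ≠ Δ.pt (u + α' • v + β' • w) := by
    intro α β α' β' h1 h2 h3 h4 h5
    have f1 : u + α • v + β • w = (1 : F) • u + α • v + β • w := by rw [one_smul]
    have f2 : u + α' • v + β' • w = (1 : F) • u + α' • v + β' • w := by rw [one_smul]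
    rw [Δ.pt_ne_iff (hli.ne (by simp) f1) (herm_comb hF hu hv hw huv huw hvw f1 f1) (hli.ne (by simp) f2)
      (herm_comb hF hu hv hw huv huw hvw f2 f2)]
    refine hli.np ?_ f1 f2
    intro c k1 k2 k3
    rw [mul_one] at k1
    rw [← k1, one_mul] at k2 k3
    exact h5 ⟨k2.symm, k3.symm⟩
  have a1 := key 1 1 one_ne_zero one_ne_zero
  have a2 := key 1 ω one_ne_zero hω0
  have a3 := key 1 (ω ^ 2) one_ne_zero hω2
  have a4 := key ω 1 hω0 one_ne_zero
  have b12 := hne 1 1 1 ω one_ne_zero one_ne_zero one_ne_zero hω0 (fun k => hω1 k.2.symm)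
  have b13 := hne 1 1 1 (ω ^ 2) one_ne_zero one_ne_zero one_ne_zero hω2 (fun k => hω3 k.2.symm)
  have b14 := hne 1 1 ω 1 one_ne_zero one_ne_zero hω0 one_ne_zero (fun k => hω1 k.1.symm)
  have b23 := hne 1 ω 1 (ω ^ 2) one_ne_zero hω0 one_ne_zero hω2 (fun k => hω4 k.2)
  have b24 := hne 1 ω ω 1 one_ne_zero hω0 hω0 one_ne_zero (fun k => hω1 k.1.symm)
  have b34 := hne 1 (ω ^ 2) ω 1 one_ne_zero hω2 hω0 one_ne_zero (fun k => hω1 k.1.symm)
  rcases a1 with a1 | a1 | a1 <;> rcases a2 with a2 | a2 | a2 <;> rcases a3 with a3 | a3 | a3 <;>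
    rcases a4 with a4 | a4 | a4 <;>
    first
      | exact b12 (a1.trans a2.symm)
      | exact b13 (a1.trans a3.symm)
      | exact b14 (a1.trans a4.symm)
      | exact b23 (a2.trans a3.symm)
      | exact b24 (a2.trans a4.symm)
      | exact b34 (a3.trans a4.symm)

/-- `d` is in the group generated by `perp D d`. -/
theorem mem_closure_perp {d : G} (hd : d ∈ D) : d ∈ Subgroup.closure (perp D d) := by
  obtain ⟨p1, p2, p3, p4, p5, p6, k1, k2, k3, k4, k5, k6, hp⟩ := h.exists_six hd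
  have := mul_mem (Subgroup.subset_closure k1) (mul_mem (Subgroup.subset_closure k2) (mul_mem
    (Subgroup.subset_closure k3) (mul_mem (Subgroup.subset_closure k4) (mul_mem (Subgroup.subset_closure k5)
    (Subgroup.subset_closure k6)))))
  rwa [hp] at this

theorem center_closure_perp {d : G} (hd : d ∈ D) : Subgroup.center ↥(Subgroup.closure (perp D d)) =
    (Subgroup.zpowers d).subgroupOf (Subgroup.closure (perp D d)) := by
  ext ⟨z, hz⟩
  rw [Dict.mem_center_iff', Subgroup.mem_subgroupOf]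
  constructor
  · intro h1
    rcases h.centralizer_perp hd h1 with h2 | h2
    · change z ∈ _
      rw [h2]; exact one_mem _
    · change z ∈ _
      rw [h2]; exact Subgroup.mem_zpowers d
  · rintro ⟨k, hk⟩ y hy
    change d ^ k = z at hk
    rw [← hk]
    exact (hy.2.2.symm).zpow_right k

theorem perfect {d : G} (hd : d ∈ D) : commutator ↥(Subgroup.closure (perp D d)) = ⊤ := by
  obtain ⟨F, i1, i2, ⟨Δ⟩⟩ := h.dict hd
  have hperf : commutator (Cfsg.PSU 6 F 2) = ⊤ := by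
    have h1 := Uni.SU_perfect (F := F) (q := 2) (n := 6) Δ.hF (by norm_num) (by norm_num)
    have h2 : (commutator (Cfsg.SU 6 F 2)).map (QuotientGroup.mk' (Subgroup.center (Cfsg.SU 6 F 2))) =
      commutator (Cfsg.PSU 6 F 2) := by
      rw [commutator_def, commutator_def, Subgroup.map_commutator, Subgroup.map_top_of_surjective _
        (QuotientGroup.mk'_surjective _)]
    rw [← h2, h1, Subgroup.map_top_of_surjective _ (QuotientGroup.mk'_surjective _)]
  -- `K = K' Z(K)`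
  have hKZ : ∀ k : ↥(Subgroup.closure (perp D d)), ∃ k' ∈ commutator ↥(Subgroup.closure (perp D d)), k * k'⁻¹ ∈ Subgroup.center ↥(Subgroup.closure (perp D d)) := by
    intro k
    have h1 : Δ.ψ k ∈ commutator (Cfsg.PSU 6 F 2) := by rw [hperf]; trivial
    have h2 : (commutator ↥(Subgroup.closure (perp D d))).map Δ.ψ = commutator (Cfsg.PSU 6 F 2) := by
      rw [commutator_def, commutator_def, Subgroup.map_commutator, Subgroup.map_top_of_surjective _ Δ.surj]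
    rw [← h2] at h1
    obtain ⟨k', hk', h3⟩ := h1
    refine ⟨k', hk', ?_⟩
    rw [← Δ.ker, MonoidHom.mem_ker, map_mul, map_inv, h3, mul_inv_cancel]
  have hdK := h.mem_closure_perp hd
  -- products of two members
  have hprod : ∀ y (hy : y ∈ perp D d) y' (hy' : y' ∈ perp D d),
      (⟨y, Subgroup.subset_closure hy⟩ * ⟨y', Subgroup.subset_closure hy'⟩ : ↥(Subgroup.closure (perp D d))) ∈ commutator ↥(Subgroup.closure (perp D d)) := by
    intro y hy y' hy'
    obtain ⟨e, he, hde⟩ := h.exists_nc' hd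
    obtain ⟨g, hg, hg2⟩ := perp_single_class h.cls h.irr hd he hde hy hy'
    have h1 : (⟨y', Subgroup.subset_closure hy'⟩ : ↥(Subgroup.closure (perp D d))) =
        ⟨g, hg⟩ * ⟨y, Subgroup.subset_closure hy⟩ * (⟨g, hg⟩)⁻¹ := by
      apply Subtype.ext
      exact hg2.symm
    rw [h1]
    exact mul_conj_mem (Subtype.ext (inv_eq h.cls.1 hy.1))
  obtain ⟨p1, p2, p3, p4, p5, p6, k1, k2, k3, k4, k5, k6, hp⟩ := h.exists_six hd
  have hdK' : (⟨d, hdK⟩ : ↥(Subgroup.closure (perp D d))) ∈ commutator ↥(Subgroup.closure (perp D d)) := by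
    have := mul_mem (hprod _ k1 _ k2) (mul_mem (hprod _ k3 _ k4) (hprod _ k5 _ k6))
    have e : (⟨d, hdK⟩ : ↥(Subgroup.closure (perp D d))) = (⟨p1, Subgroup.subset_closure k1⟩ * ⟨p2, Subgroup.subset_closure k2⟩) *
      ((⟨p3, Subgroup.subset_closure k3⟩ * ⟨p4, Subgroup.subset_closure k4⟩) *
      (⟨p5, Subgroup.subset_closure k5⟩ * ⟨p6, Subgroup.subset_closure k6⟩)) := by
      apply Subtype.ext
      change d = (p1 * p2) * ((p3 * p4) * (p5 * p6))
      rw [← hp]; simp only [mul_assoc]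
    rw [e]; exact this
  rw [eq_top_iff]
  intro k _
  obtain ⟨k', hk', h1⟩ := hKZ k
  rw [show Subgroup.center ↥(Subgroup.closure (perp D d)) = _ from h.center_closure_perp hd, Subgroup.mem_subgroupOf] at h1
  obtain ⟨m, hm⟩ := h1
  have h2 : k * k'⁻¹ = (⟨d, hdK⟩ : ↥(Subgroup.closure (perp D d))) ^ m := by
    apply Subtype.ext
    rw [← hm]; rfl
  have h3 : k = (⟨d, hdK⟩ : ↥(Subgroup.closure (perp D d))) ^ m * k' := by rw [← h2, inv_mul_cancel_right]
  rw [h3]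
  exact mul_mem (zpow_mem hdK' m) hk'

theorem quasisimple {d : G} (hd : d ∈ D) : Cfsg.IsQuasisimple ↥(Subgroup.closure (perp D d)) := by
  refine ⟨⟨h.perfect hd⟩, ?_⟩
  obtain ⟨F, i1, i2, hF, he⟩ := exists_equiv h.cls h.typ
  obtain ⟨e⟩ := he d hd
  have h1 := psu6_simple hF
  exact e.isSimpleGroup

theorem commutator_eq_top : commutator G = ⊤ := by
  rw [eq_top_iff, ← h.cls.2.2, Subgroup.closure_le]
  intro d hd
  have h1 : (⟨d, h.mem_closure_perp hd⟩ : ↥(Subgroup.closure (perp D d))) ∈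
      commutator ↥(Subgroup.closure (perp D d)) := by rw [h.perfect hd]; trivial
  have h2 : (commutator ↥(Subgroup.closure (perp D d))).map (Subgroup.closure (perp D d)).subtype ≤ commutator G := by
    rw [commutator_def, commutator_def, Subgroup.map_commutator]
    exact Subgroup.commutator_mono le_top le_top
  exact h2 ⟨_, h1, rfl⟩

end H22

end Cfsg.Agent.FW
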