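import Cfsg.Agent.FW.Oct
import Cfsg.Agent.FW.Off
import Cfsg.Agent.Fi22.Code

/-!
# How a member meets a hexad
-/

set_option autoImplicit false
set_option linter.unusedSectionVars false

namespace Cfsg.Agent.FW

open Cfsg.Agent.Fi22

open Finset Matrix Module Cfsg.Agent.Uni Cfsg.Agent.ThreeTransp

variable {G : Type*} [Group G] {D : Set G}

theorem fact_permute {m : ℕ} {j : G} {l l' : List G} (h : IsFact D m j l) (hp : l.Perm l') : IsFact D m j l' :=
  ⟨hp.nodup_iff.1 h.1, by rw [← hp.length_eq]; exact h.2.1, fun a ha => h.2.2.1 a (hp.mem_iff.2 ha),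
    fun a ha b hb => h.2.2.2.1 a (hp.mem_iff.2 ha) b (hp.mem_iff.2 hb),
    by rw [← comm_list_perm hp h.2.2.2.1]; exact h.2.2.2.2⟩

theorem perm_front3 {l : List G} {a b c : G} (ha : a ∈ l) (hb : b ∈ l) (hc : c ∈ l) (hab : a ≠ b)
    (hac : a ≠ c) (hbc : b ≠ c) : ∃ t, l.Perm (a :: b :: c :: t) := by
  classical
  have h1 := List.perm_cons_erase ha
  have hb1 : b ∈ l.erase a := (List.mem_erase_of_ne hab.symm).2 hb
  have h2 := List.perm_cons_erase hb1
  have hc1 : c ∈ l.erase a := (List.mem_erase_of_ne hac.symm).2 hc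
  have hc2 : c ∈ (l.erase a).erase b := (List.mem_erase_of_ne hbc.symm).2 hc1
  have h3 := List.perm_cons_erase hc2
  exact ⟨_, h1.trans ((h2.trans (h3.cons b)).cons a)⟩

theorem prod3_split {a b c : G} {t : List G} (h : (a :: b :: c :: t).prod = 1) : a * (b * c) * t.prod = 1 := by
  simpa only [List.prod_cons, mul_assoc] using h

namespace H22

variable [Finite G] (h : H22 D)

include h

/-- three members of a hexad determine it -/
theorem fact6_ext {l l' : List G} (hl : IsFact D 6 1 l) (hl' : IsFact D 6 1 l') {a b c : G} (ha : a ∈ l) (hb : b ∈ l)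
    (hc : c ∈ l) (ha' : a ∈ l') (hb' : b ∈ l') (hc' : c ∈ l') (hab : a ≠ b) (hac : a ≠ c) (hbc : b ≠ c) (x : G) :
    x ∈ l → x ∈ l' := by
  obtain ⟨t, ht⟩ := perm_front3 ha hb hc hab hac hbc
  obtain ⟨t', ht'⟩ := perm_front3 ha' hb' hc' hab hac hbc
  have f := fact_permute hl ht
  have f' := fact_permute hl' ht'
  have hP : ∀ x ∈ D, x * x = 1 := fun x hx => mul_self h.cls.1 hx
  have key : ∀ {t : List G}, IsFact D 6 1 (a :: b :: c :: t) → IsFact D 3 (a * (b * c)) t ∧ (a ∉ t ∧ b ∉ t ∧ c ∉ t) := by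
    intro t f
    obtain ⟨f1, f2, f3, f4, f5⟩ := f
    have hn := f1
    simp only [List.nodup_cons, List.mem_cons, not_or] at hn
    have hsq := comm_list_sq (l := t) hP (fun x hx => f3 x (by simp [hx])) (fun x hx y hy => f4 x (by simp [hx]) y (by simp [hy]))
    refine ⟨⟨hn.2.2.2, by simpa using f2, fun x hx => f3 x (by simp [hx]), fun x hx y hy => f4 x (by simp [hx]) y (by simp [hy]),
      ?_⟩, hn.1.2.2, hn.2.1.2, hn.2.2.1⟩
    have e := prod3_split f5
    rw [eq_inv_of_mul_eq_one_left e]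
    exact (inv_eq_of_mul_eq_one_left hsq).symm
  obtain ⟨g1, n1, n2, n3⟩ := key f
  obtain ⟨g2, n1', n2', n3'⟩ := key f'
  have g0 : IsFact D 3 (a * (b * c)) [a, b, c] := by
    refine ⟨by simp [hab, hac, hbc], rfl, ?_, ?_, by simp⟩
    · intro x hx
      simp only [List.mem_cons, List.not_mem_nil, or_false] at hx
      rcases hx with rfl | rfl | rfl
      · exact hl.2.2.1 _ ha
      · exact hl.2.2.1 _ hb
      · exact hl.2.2.1 _ hc
    · intro x hx y hy
      have k : ∀ z ∈ [a, b, c], z ∈ l := by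
        intro z hz
        simp only [List.mem_cons, List.not_mem_nil, or_false] at hz
        rcases hz with rfl | rfl | rfl
        · exact ha
        · exact hb
        · exact hc
      exact hl.2.2.2.1 x (k x hx) y (k y hy)
  obtain ⟨l1, l2, -, -, -, huniq⟩ := h.fact_three g0
  have hsame : ∀ x, x ∈ t ↔ x ∈ t' := by
    intro x
    rcases huniq _ g0 with k0 | k0 <;> rcases huniq _ g1 with k1 | k1 <;> rcases huniq _ g2 with k2 | k2
    · exact absurd ((k1 a).2 ((k0 a).1 (by simp))) n1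
    · exact absurd ((k1 a).2 ((k0 a).1 (by simp))) n1
    · exact absurd ((k2 a).2 ((k0 a).1 (by simp))) n1'
    · exact (k1 x).trans (k2 x).symm
    · exact (k1 x).trans (k2 x).symm
    · exact absurd ((k2 a).2 ((k0 a).1 (by simp))) n1'
    · exact absurd ((k1 a).2 ((k0 a).1 (by simp))) n1
    · exact absurd ((k1 a).2 ((k0 a).1 (by simp))) n1
  intro hx
  rw [ht.mem_iff] at hx
  rw [ht'.mem_iff]
  simp only [List.mem_cons] at hx ⊢
  rcases hx with hx | hx | hx | hx
  · exact Or.inl hx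
  · exact Or.inr (Or.inl hx)
  · exact Or.inr (Or.inr (Or.inl hx))
  · exact Or.inr (Or.inr (Or.inr ((hsame x).1 hx)))

/-- a member commuting with three members of a hexad commutes with all of them -/
theorem six_all {l : List G} (hl : IsFact D 6 1 l) {x : G} (hx : x ∈ D) {a b c : G} (ha : a ∈ l) (hb : b ∈ l)
    (hc : c ∈ l) (hab : a ≠ b) (hac : a ≠ c) (hbc : b ≠ c) (xa : Commute x a) (xb : Commute x b) (xc : Commute x c)
    {y : G} (hy : y ∈ l) : Commute x y := by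
  have haD := hl.2.2.1 a ha
  have hbp : b ∈ perp D a := ⟨hl.2.2.1 b hb, hab.symm, hl.2.2.2.1 a ha b hb⟩
  have hcp : c ∈ perp D a := ⟨hl.2.2.1 c hc, hac.symm, hl.2.2.2.1 a ha c hc⟩
  have cbc := hl.2.2.2.1 b hb c hc
  by_cases hxa : x = a
  · rw [hxa]; exact hl.2.2.2.1 a ha y hy
  have hxp : x ∈ perp D a := ⟨hx, hxa, xa.symm⟩
  obtain ⟨F, i1, i2, ⟨Δ⟩⟩ := h.dict haD
  have hF := Δ.hF
  obtain ⟨ω, hω⟩ := exists_omega hF
  obtain ⟨u, hu0, hu, rfl⟩ := Δ.exists_pt hbp
  obtain ⟨v, hv0, hv, rfl⟩ := Δ.exists_pt hcp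
  obtain ⟨w, hw0, hw, rfl⟩ := Δ.exists_pt hxp
  have huv := (Δ.commute_pt hu0 hu hv0 hv).1 cbc
  have hnp := (Δ.pt_ne_iff hu0 hu hv0 hv).1 hbc
  have L := h.line_fact haD Δ hu0 hnp hu hv huv hω
  have hy' := h.fact6_ext hl L ha hb hc (by simp) (by simp) (by simp) hab hac hbc y hy
  have e1 := (Δ.commute_pt hw0 hw hu0 hu).1 xb
  have e2 := (Δ.commute_pt hw0 hw hv0 hv).1 xc
  have key : ∀ α : F, Commute (Δ.pt w) (Δ.pt (u + α • v)) := by
    intro α
    rw [Δ.commute_pt hw0 hw (line_ne hu0 hnp α) (line_iso hF hu hv huv _ _), hermForm_add_right hF,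
      hermForm_smul_right, e1, e2, mul_zero, add_zero]
  simp only [List.mem_cons, List.not_mem_nil, or_false] at hy'
  rcases hy' with rfl | rfl | rfl | rfl | rfl | rfl
  · exact xa
  · exact xb
  · exact xc
  · have := key 1; rwa [one_smul] at this
  · exact key ω
  · exact key (ω ^ 2)

/-- a member commuting with a member of a hexad commutes with a second one -/
theorem six_one {l : List G} (hl : IsFact D 6 1 l) {x : G} (hx : x ∈ D) {a : G} (ha : a ∈ l) (xa : Commute x a) :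
    ∃ y ∈ l, y ≠ a ∧ Commute x y := by
  classical
  have haD := hl.2.2.1 a ha
  -- two further members
  obtain ⟨t, ht⟩ : ∃ t, l.Perm (a :: t) := ⟨_, List.perm_cons_erase ha⟩
  have f := fact_permute hl ht
  obtain ⟨b, c, t', rfl⟩ : ∃ b c t', t = b :: c :: t' := by
    have := f.2.1
    cases t with
    | nil => simp at this
    | cons b t =>
      cases t with
      | nil => simp at this
      | cons c t => exact ⟨b, c, t, rfl⟩
  have hn := f.1
  simp only [List.nodup_cons, List.mem_cons, not_or] at hn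
  have hab : a ≠ b := hn.1.1
  have hac : a ≠ c := hn.1.2.1
  have hbc : b ≠ c := hn.2.1.1
  have hb : b ∈ l := ht.mem_iff.2 (by simp)
  have hc : c ∈ l := ht.mem_iff.2 (by simp)
  by_cases hxa : x = a
  · exact ⟨b, hb, hab.symm, by rw [hxa]; exact hl.2.2.2.1 a ha b hb⟩
  have hbp : b ∈ perp D a := ⟨hl.2.2.1 b hb, hab.symm, hl.2.2.2.1 a ha b hb⟩
  have hcp : c ∈ perp D a := ⟨hl.2.2.1 c hc, hac.symm, hl.2.2.2.1 a ha c hc⟩
  have cbc := hl.2.2.2.1 b hb c hc
  have hxp : x ∈ perp D a := ⟨hx, hxa, xa.symm⟩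
  obtain ⟨F, i1, i2, ⟨Δ⟩⟩ := h.dict haD
  have hF := Δ.hF
  obtain ⟨ω, hω⟩ := exists_omega hF
  obtain ⟨u, hu0, hu, rfl⟩ := Δ.exists_pt hbp
  obtain ⟨v, hv0, hv, rfl⟩ := Δ.exists_pt hcp
  obtain ⟨w, hw0, hw, rfl⟩ := Δ.exists_pt hxp
  have huv := (Δ.commute_pt hu0 hu hv0 hv).1 cbc
  have hnp := (Δ.pt_ne_iff hu0 hu hv0 hv).1 hbc
  have L := h.line_fact haD Δ hu0 hnp hu hv huv hω
  by_cases h0 : hermForm 6 F 2 w v = 0
  · exact ⟨_, hc, hac.symm, (Δ.commute_pt hw0 hw hv0 hv).2 h0⟩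
  set s := hermForm 6 F 2 w u / hermForm 6 F 2 w v with hs
  have hs4 : s ^ 4 = s := by
    by_cases hs0 : s = 0
    · rw [hs0]; norm_num
    · have := pow_three_eq_one hF hs0
      calc s ^ 4 = s ^ 3 * s := by ring
        _ = s := by rw [this, one_mul]
  have hz : hermForm 6 F 2 w (u + s ^ 2 • v) = 0 := by
    rw [hermForm_add_right hF, hermForm_smul_right, ← pow_mul]
    rw [show (2 * 2 : ℕ) = 4 by norm_num, hs4, hs, div_mul_cancel₀ _ h0]
    exact add_self' hF _
  have hm : Δ.pt (u + s ^ 2 • v) ∈ [a, Δ.pt u, Δ.pt v, Δ.pt (u + v), Δ.pt (u + ω • v), Δ.pt (u + ω ^ 2 • v)] := by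
    rcases F_cases hF hω (s ^ 2) with e | e | e | e <;> rw [e]
    · rw [zero_smul, add_zero]; simp
    · rw [one_smul]; simp
    · simp
    · simp
  refine ⟨_, h.fact6_ext L hl (by simp) (by simp) (by simp) ha hb hc hab hac hbc _ hm, ?_, ?_⟩
  · exact (Δ.pt_mem (line_ne hu0 hnp _) (line_iso hF hu hv huv _ _)).2.1
  · exact (Δ.commute_pt hw0 hw (line_ne hu0 hnp _) (line_iso hF hu hv huv _ _)).2 hz

end H22

end Cfsg.Agent.FW
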